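import Mathlib
import Cfsg.Prelude.Def_Sporadic_a

/-! Interface for `N(J(T))/J(T) ≅ M₂₄` in groups of large Fischer type (S5446, S5448).
`A ≅ 2¹¹`, `M = N(A)`, `D` = the involutions of `A` not conjugate to `z`, `B = A ∩ Q`. -/

set_option autoImplicit false
open Subgroup
open scoped Pointwise

namespace L.Fz
universe u
variable {G : Type u} [Group G]

/-- what local analysis gives -/
structure Cf (A M B : Subgroup G) (D : Set G) (z : G) : Prop where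
  sq : ∀ x ∈ A, x * x = 1
  cA : Nat.card A = 2048
  AM : A ≤ M
  nM : ∀ m ∈ M, ∀ x ∈ A, m * x * m⁻¹ ∈ A
  cen : ∀ m ∈ M, (∀ x ∈ A, m * x = x * m) → m ∈ A
  DA : ∀ t ∈ D, t ∈ A ∧ t ≠ 1
  Dc : ∀ m ∈ M, ∀ t ∈ D, m * t * m⁻¹ ∈ D
  trD : ∀ s ∈ D, ∀ t ∈ D, ∃ m ∈ M, m * s * m⁻¹ = t
  trZ : ∀ x ∈ A, x ≠ 1 → x ∉ D → ∃ m ∈ M, m * z * m⁻¹ = x
  z1 : z ≠ 1
  zD : z ∉ D
  zB : z ∈ B
  BA : B ≤ A
  cB : Nat.card B = 128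
  nB : ∀ m ∈ M, m * z * m⁻¹ = z → ∀ x ∈ B, m * x * m⁻¹ ∈ B
  Bz : ∀ t ∈ D, t ∈ B → t * z ∈ D
  exD : ∃ t ∈ D, t ∈ B
  exZ : ∃ x ∈ B, x ∉ D ∧ x ≠ 1 ∧ x ≠ z
  cQ : ∃ P ≤ M, IsPGroup 2 P ∧ ∀ x ∈ A, (∀ m ∈ P, m * x = x * m) → x = 1 ∨ x = z
  trDB : ∀ s ∈ D, s ∈ B → ∀ t ∈ D, t ∈ B → ∃ m ∈ M, m * z * m⁻¹ = z ∧ m * s * m⁻¹ = t
  trZB : ∀ x ∈ B, x ∉ D → x ≠ 1 → x ≠ z → ∀ y ∈ B, y ∉ D → y ≠ 1 → y ≠ z → ∃ m ∈ M, m * z * m⁻¹ = z ∧ m * x * m⁻¹ = y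
  cos : ∀ x ∈ A, x ∉ B → ∀ y ∈ A, y ∉ B → ∃ m ∈ M, m * z * m⁻¹ = z ∧ m * x * m⁻¹ * y ∈ B
  cN : Nat.card (M ⊓ centralizer {z} : Subgroup G) ∣ 2 ^ 21 * 3 ^ 7 * 5
  c21 : 2 ^ 21 ∣ Nat.card (M ⊓ centralizer {z} : Subgroup G)
  c19 : ∀ t ∈ D, t ∈ B → 2 ^ 19 ∣ Nat.card (M ⊓ centralizer {z} ⊓ centralizer {t} : Subgroup G) ∧
    ¬ 2 ^ 20 ∣ Nat.card (M ⊓ centralizer {z} ⊓ centralizer {t} : Subgroup G)

/-- counts inside `B` -/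
structure Kb (M B : Subgroup G) (D : Set G) (z : G) : Prop where
  c36 : {t | t ∈ D ∧ t ∈ B}.ncard = 36
  c4 : ∀ t ∈ D, t ∈ B → {s | s ∈ D ∧ s ∈ B ∧ s * t ∈ D}.ncard = 4
  c45 : 45 * 2 ^ 21 ∣ Nat.card (M ⊓ centralizer {z} : Subgroup G)

/-- counts in `A` -/
structure Nb (B : Subgroup G) (D : Set G) (z : G) : Prop where
  d : D.ncard = 276
  a : ∀ t ∈ D, t * z ∈ D → t ∈ B
  b : ∀ t ∈ D, {s | s ∈ D ∧ s * t ∈ D}.ncard = 44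

/-- the neighbourhood of `t` is two cliques -/
structure Xb (D : Set G) : Prop where
  one : ∀ t ∈ D, ∀ s ∈ D, ∀ r ∈ D, s * t ∈ D → r * t ∈ D → r ≠ s → r ≠ s * t → (s * r ∈ D ↔ s * r * t ∉ D)
  tr : ∀ t ∈ D, ∀ s ∈ D, ∀ r ∈ D, ∀ w ∈ D, s * t ∈ D → r * t ∈ D → w * t ∈ D → r ≠ s * t → w ≠ s * t → r ≠ w →
    s * r ∈ D → s * w ∈ D → r * w ∈ D

/-- `D` is the set of pairs of a 24-set -/
structure Tr (M : Subgroup G) (D : Set G) {Ω : Type u} (τ : Ω → Ω → G) (σ : M →* Equiv.Perm Ω) : Prop where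
  card : Nat.card Ω = 24
  refl : ∀ i, τ i i = 1
  mul : ∀ i j k, τ i j * τ j k = τ i k
  symm : ∀ i j, τ i j = τ j i
  mem : ∀ i j, i ≠ j → τ i j ∈ D
  surj : ∀ t ∈ D, ∃ i j, i ≠ j ∧ τ i j = t
  inj : ∀ i j k l, i ≠ j → τ i j = τ k l → i = k ∧ j = l ∨ i = l ∧ j = k
  non : ∀ i j k l, i ≠ j → i ≠ k → i ≠ l → j ≠ k → j ≠ l → k ≠ l → τ i j * τ k l ∉ D
  act : ∀ (m : M) i j, (m : G) * τ i j * (m : G)⁻¹ = τ (σ m i) (σ m j)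

def KStmt : Prop := ∀ {G : Type u} [Group G] [Finite G] {A M B : Subgroup G} {D : Set G} {z : G}, Cf A M B D z → Kb M B D z
def NStmt : Prop := ∀ {G : Type u} [Group G] [Finite G] {A M B : Subgroup G} {D : Set G} {z : G}, Cf A M B D z → Kb M B D z → Nb B D z
def XStmt : Prop := ∀ {G : Type u} [Group G] [Finite G] {A M B : Subgroup G} {D : Set G} {z : G},
  Cf A M B D z → Kb M B D z → Nb B D z → Xb D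
def TStmt : Prop := ∀ {G : Type u} [Group G] [Finite G] {A M B : Subgroup G} {D : Set G} {z : G},
  Cf A M B D z → Nb B D z → Xb D → ∃ (Ω : Type u) (τ : Ω → Ω → G) (σ : M →* Equiv.Perm Ω), Tr M D τ σ
def SStmt : Prop := ∀ {G : Type u} [Group G] [Finite G] {A M B : Subgroup G} {D : Set G} {z : G} {Ω : Type u} {τ : Ω → Ω → G}
  {σ : M →* Equiv.Perm Ω}, Cf A M B D z → Nb B D z → Tr M D τ σ → ∃ e : Ω ≃ Cfsg.GolayPt, ∀ m : M, e.permCongr (σ m) ∈ Cfsg.M24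
def FStmt : Prop := ∀ {G : Type u} [Group G] [Finite G] {A M B : Subgroup G} {D : Set G} {z : G} {Ω : Type u} {τ : Ω → Ω → G}
  {σ : M →* Equiv.Perm Ω} (e : Ω ≃ Cfsg.GolayPt), Cf A M B D z → Kb M B D z → Nb B D z → Tr M D τ σ →
  (∀ m : M, e.permCongr (σ m) ∈ Cfsg.M24) →
  (∃ _ : (A.subgroupOf M).Normal, Nonempty (↥M ⧸ A.subgroupOf M ≃* ↥Cfsg.M24)) ∧
  ∀ t ∈ D, ∃ _ : (A.subgroupOf (M ⊓ Subgroup.centralizer ({t} : Set G))).Normal,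
    Nonempty (↥(M ⊓ Subgroup.centralizer ({t} : Set G)) ⧸ A.subgroupOf (M ⊓ Subgroup.centralizer ({t} : Set G)) ≃*
      ↥(Cfsg.M24 ⊓ MulAction.stabilizer (Equiv.Perm Cfsg.GolayPt) ({none, some 0} : Set Cfsg.GolayPt)))

end L.Fz
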