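import Cfsg.Agent.H23.K0
import Cfsg.Prelude.Def_TwoFusion

/-! Interface for the 7-local statement S5573 (Janko-four type), namespace `L.Js`. -/

set_option autoImplicit false
open Cfsg BG Subgroup H01.XS Cfsg.Agent.H06.J Cfsg.Agent.H23.K

namespace L.Js
universe u

def XStmt : Prop := ∀ {X : Type u} [Group X] [Finite X] (U : Subgroup X) (z : X),
  (∀ w : X, orderOf w = 2 → Nat.card C_[w] ∣ 8 ∨ (3 ∣ Nat.card C_[w] ∧ Nat.card C_[w] ∣ 12)) →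
  Nat.card U = 4 → (∀ w ∈ U, w ≠ 1 → orderOf w = 2 ∧ Nat.card C_[w] ∣ 8) → orderOf z = 2 → 3 ∣ Nat.card C_[z] →
  Nonempty (X ≃* Equiv.Perm (Fin 5)) ∧ Nat.card C_[z] = 12 ∧ ∀ w : X, orderOf w = 2 → 3 ∣ Nat.card C_[w] → IsConj z w

def FStmt : Prop := ∀ {G : Type u} [Group G] [Finite G] (σ z : G) (U : Subgroup G), XStmt.{u} → orderOf σ = 7 → orderOf z = 2 →
  z ∈ C_[σ] → (∀ w ∈ C_[σ], orderOf w = 2 → Nat.card ↥(C_[w] ⊓ C_[σ]) ∣ 56 ∨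
    (3 ∣ Nat.card ↥(C_[w] ⊓ C_[σ]) ∧ Nat.card ↥(C_[w] ⊓ C_[σ]) ∣ 84)) →
  U ≤ C_[σ] → Nat.card U = 4 → (∀ w ∈ U, w ≠ 1 → orderOf w = 2 ∧ Nat.card ↥(C_[w] ⊓ C_[σ]) ∣ 56) →
  3 ∣ Nat.card ↥(C_[z] ⊓ C_[σ]) → Nat.card ↥(C_[z] ⊓ N_(zpowers σ)) = 252 →
  ¬ (49 ∣ Nat.card G) ∧
    (∃ I : Subgroup G, IsInternalDirectProduct (zpowers σ) I C_(zpowers σ) ∧ Nonempty (↥I ≃* Equiv.Perm (Fin 5))) ∧
    Nat.card ↥(N_(zpowers σ)) = 3 * Nat.card ↥(C_(zpowers σ)) ∧ Nat.card ↥(N_(zpowers σ)) = 2 ^ 3 * 3 ^ 2 * 5 * 7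

/-- the 7-elements of `C(z)` -/
def Ha {G : Type u} [Group G] (z : G) : Prop := ¬ 49 ∣ Nat.card C_[z] ∧ ∀ σ ∈ C_[z], orderOf σ = 7 →
  Nat.card ↥(C_[z] ⊓ C_[σ]) ∣ 84 ∧ 3 ∣ Nat.card ↥(C_[z] ⊓ C_[σ]) ∧ Nat.card ↥(C_[z] ⊓ N_(zpowers σ)) = 252

def AStmt : Prop := ∀ {G : Type u} [Group G] [Finite G] {z : G} {Q : Subgroup G}
  {V : Type u} [AddCommGroup V] [Module (ZMod 2) V] [Finite V] {Γ : Type u} [Group Γ] [Finite Γ]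
  {f : C_[z] →* Γ} {π : G → Γ} {ν : G → V} {T : Γ → V →+ V} {d : Γ} {M : Subgroup Γ} {β : V →+ V →+ ZMod 2}
  {q : V → ZMod 2} (_ : Bj z Q f π ν T d M β q) (ρ : M →* Spor.M22), d ∈ ⁅M, M⁆ →
  Function.Surjective ρ → (∀ m : M, ρ m = 1 ↔ (m : Γ) ∈ zpowers d) → Ha z

/-- `2B`-pure subgroups of a `2¹¹` are small -/
def Pu {G : Type u} [Group G] (z : G) : Prop := ∀ V : Subgroup G, IsElementaryAbelian 2 V → Nat.card V = 2 ^ 11 →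
  ∀ I ≤ V, (∀ x ∈ I, x ≠ 1 → ¬ IsConj z x) → Nat.card I ≤ 4

def M7Stmt : Prop := ∀ α : MulAut Spor.M22, orderOf α = 7 → Nat.card C_[α] ∣ 14
def M21Stmt : Prop := ∃ x y : Cfsg.M24, orderOf x = 3 ∧ orderOf y = 7 ∧ x * y = y * x

def BStmt : Prop := ∀ {G : Type u} [Group G] [Finite G] (z t σ : G) (V K : Subgroup G), M7Stmt → Ha z → Pu z →
  C_[t] ≤ N_(V) → IsElementaryAbelian 2 V → Nat.card V = 2 ^ 11 → K ⊓ V = ⊥ → K ⊔ V = C_[t] →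
  Nonempty (↥K ≃* MulAut ↥Spor.M22) → σ ∈ C_[t] → orderOf σ = 7 → Nat.card ↥(C_[t] ⊓ C_[σ]) ∣ 56

def CStmt : Prop := ∀ {G : Type u} [Group G] [Finite G] (z δ σ t : G) (V K : Subgroup G), M21Stmt → Ha z → Pu z →
  IsElementaryAbelian 2 V → Nat.card V = 2 ^ 11 → K ≤ N_(V) → Spor.IsoM24 K → t ∈ V → t ≠ 1 → ¬ IsConj z t →
  Set.ncard {v : G | ∃ n ∈ N_(V), n * t * n⁻¹ = v} = 276 →
  orderOf δ = 3 → C_[δ] ≤ C_[z] → (∀ x y : G, orderOf x = 3 → orderOf y = 3 → IsConj x y) → σ ∈ C_[z] → orderOf σ = 7 →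
  ∃ U ≤ C_[σ], Nat.card U = 4 ∧ ∀ w ∈ U, w ≠ 1 → orderOf w = 2 ∧ ¬ IsConj z w

end L.Js
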