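import Cfsg.Agent.H23.K0

/-! Interface for the 3-local statements S5563, S5564, S5565 (Janko-four type), namespace `L.Jt`.
`X = C(z) ⊓ C(δ)`, `V₀ = A ⊓ C(δ) ≅ 2⁵`. -/

set_option autoImplicit false
open Cfsg BG Subgroup H01.XS Cfsg.Agent.H06.J Cfsg.Agent.H23.K

namespace L.Jt
universe u

structure Vz {G : Type u} [Group G] (A N : Subgroup G) (D : Set G) (z δ : G) : Prop where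
  δN : δ ∈ N
  δz : δ ∈ C_[z]
  δ3 : orderOf δ = 3
  c32 : Nat.card ↥(A ⊓ C_[δ]) = 32
  tr : ∀ x ∈ A ⊓ C_[δ], x ≠ 1 → x ≠ z → ∀ y ∈ A ⊓ C_[δ], y ≠ 1 → y ≠ z →
    ∃ c ∈ N, c ∈ C_[z] ∧ c ∈ C_[δ] ∧ (c * x * c⁻¹ = y ∨ c * x * c⁻¹ = y * z)
  ex : ∀ x ∈ A ⊓ C_[δ], x ≠ 1 → x ≠ z → (x ∈ D ↔ x * z ∉ D)
  p1 : ∃ s ∈ D, s ∈ C_[δ] ∧ ∃ t ∈ D, t ∈ C_[δ] ∧ s ≠ t ∧ s * t ∉ D
  p2 : ∃ s ∈ D, s ∈ C_[δ] ∧ ∃ t ∈ D, t ∈ C_[δ] ∧ s * t ∈ D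

structure Lc {G : Type u} [Group G] {Γ : Type u} [Group Γ] (z : G) (Q A : Subgroup G) (π : G → Γ) (M : Subgroup Γ) (δ : G) : Prop where
  qz : ∀ x ∈ Q, x ∈ C_[δ] → x = 1 ∨ x = z
  lift : ∀ m ∈ M, ∃ c ∈ C_[z], c ∈ C_[δ] ∧ π c = m
  inM : ∀ c ∈ C_[z], c ∈ C_[δ] → π c ∈ M
  δN : δ ∈ N_(A)
  QN : Q ≤ N_(A)
  δ3 : orderOf δ = 3
  z2 : orderOf z = 2
  c81 : ¬ 81 ∣ Nat.card C_[z]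
  c32 : Nat.card ↥(A ⊓ C_[δ]) = 32
  tr : ∀ x ∈ A ⊓ C_[δ], x ≠ 1 → x ≠ z → ∀ y ∈ A ⊓ C_[δ], y ≠ 1 → y ≠ z →
    ∃ c ∈ N_(A), c ∈ C_[z] ∧ c ∈ C_[δ] ∧ (c * x * c⁻¹ = y ∨ c * x * c⁻¹ = y * z)

/-- `X → M₂₂` with kernel `⟨z, δ⟩` -/
structure Th {G : Type u} [Group G] (z δ : G) (θ : ↥(C_[z] ⊓ C_[δ]) →* Spor.M22) : Prop where
  z2 : orderOf z = 2
  δ3 : orderOf δ = 3
  δz : δ ∈ C_[z]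
  sur : Function.Surjective θ
  ker : ∀ x, θ x = 1 ↔ ∃ i j : ℕ, (x : G) = z ^ i * δ ^ j
  dc : δ ∈ ⁅C_[z] ⊓ C_[δ], C_[z] ⊓ C_[δ]⁆

def M1Stmt : Prop := ∀ x : Spor.M22, orderOf x = 3 → ∀ R ≤ C_[x], Odd (Nat.card R) → Nat.card R ∣ 9
def M2Stmt : Prop := ∀ x y : Spor.M22, orderOf x = 3 → orderOf y = 3 → IsConj x y
def M3Stmt : Prop := ∀ S : Sylow 3 Spor.M22, Nat.card ↥(N_((S : Subgroup Spor.M22))) = 72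

def PStmt : Prop := ∀ {G : Type u} [Group G] [Finite G] {z : G} {Q : Subgroup G}
  {V : Type u} [AddCommGroup V] [Module (ZMod 2) V] [Finite V] {Γ : Type u} [Group Γ] [Finite Γ]
  {f : C_[z] →* Γ} {π : G → Γ} {ν : G → V} {T : Γ → V →+ V} {d : Γ} {M : Subgroup Γ} {β : V →+ V →+ ZMod 2}
  {q : V → ZMod 2} (_ : Bj z Q f π ν T d M β q) (P : Subgroup G) (ρ : M →* Spor.M22), IsOfJankoFourTypeWith z P →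
  Function.Surjective ρ → (∀ m : M, ρ m = 1 ↔ (m : Γ) ∈ zpowers d) →
  ∃ δ ∈ C_[z], π δ = d ∧ δ ^ 3 = 1 ∧ zpowers δ = P ∧ centralizer (P : Set G) = C_[δ] ∧
    δ ∈ ⁅C_[z] ⊓ C_[δ], C_[z] ⊓ C_[δ]⁆ ∧ ∃ g ∈ C_[z], g * δ * g⁻¹ = δ⁻¹

def LStmt : Prop := All.{u} fun {_ _ _ z Q _ _ _ _ _ _ _ _ π _ _ _ M _ _} s _ Y B A δ => C2 s Y B A δ → Lc z Q A π M δ

def TStmt : Prop := All.{u} fun {_ _ _ z Q _ _ _ _ Γ _ _ _ π _ _ d M _ _} _ _ _ _ A δ => Lc z Q A π M δ →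
  ∀ ρ : M →* Spor.M22, Function.Surjective ρ → (∀ m : M, ρ m = 1 ↔ (m : Γ) ∈ zpowers d) →
  δ ∈ ⁅C_[z] ⊓ C_[δ], C_[z] ⊓ C_[δ]⁆ → ∃ θ, Th z δ θ

def VStmt : Prop := ∀ {G : Type u} [Group G] [Finite G] {A N B : Subgroup G} {D : Set G} {z δ : G},
  L.Fz.Cf A N B D z → L.Fz.Nb B D z → L.Fz.Xb D → δ ∈ N → δ ∈ C_[z] → orderOf δ = 3 → Nat.card ↥(A ⊓ C_[δ]) = 32 →
  (∀ x ∈ B, x ∈ C_[δ] → x = 1 ∨ x = z) → (∀ c ∈ A, c ∈ C_[δ] → c ∉ B → c ∈ D ∨ c * z ∈ D) →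
  (∀ x ∈ A ⊓ C_[δ], x ≠ 1 → x ≠ z → (x ∈ D ↔ x * z ∉ D)) ∧
  (∃ s ∈ D, s ∈ C_[δ] ∧ ∃ t ∈ D, t ∈ C_[δ] ∧ s ≠ t ∧ s * t ∉ D) ∧ ∃ s ∈ D, s ∈ C_[δ] ∧ ∃ t ∈ D, t ∈ C_[δ] ∧ s * t ∈ D

def Z1Stmt : Prop := ∀ {G : Type u} [Group G] [Finite G] {A N B : Subgroup G} {D : Set G} {z δ : G}
  {θ : ↥(C_[z] ⊓ C_[δ]) →* Spor.M22}, L.Fz.Cf A N B D z → Vz A N D z δ → Th z δ θ → z ∈ ⁅C_[z] ⊓ C_[δ], C_[z] ⊓ C_[δ]⁆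

def Z2Stmt : Prop := ∀ {G : Type u} [Group G] [Finite G] {z δ : G} {θ : ↥(C_[z] ⊓ C_[δ]) →* Spor.M22}, Th z δ θ →
  (z ∈ ⁅C_[z] ⊓ C_[δ], C_[z] ⊓ C_[δ]⁆ → ⁅C_[z] ⊓ C_[δ], C_[z] ⊓ C_[δ]⁆ = C_[z] ⊓ C_[δ]) ∧
  IsCyclic ↥(center ↥(C_[z] ⊓ C_[δ])) ∧ Nat.card ↥(center ↥(C_[z] ⊓ C_[δ])) = 6 ∧
  Spor.IsoM22 (↥(C_[z] ⊓ C_[δ]) ⧸ center ↥(C_[z] ⊓ C_[δ])) ∧
  (C_[δ] ≤ C_[z] → ∀ g, g * δ * g⁻¹ ∈ zpowers δ → g ∈ C_[z])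

def W1Stmt : Prop := ∀ {G : Type u} [Group G] [Finite G] {A N B : Subgroup G} {D : Set G} {z δ : G},
  L.Fz.Cf A N B D z → Vz A N D z δ → ∀ n ∈ N, n * δ * n⁻¹ ∈ zpowers δ → n * z * n⁻¹ = z

def W2Stmt : Prop := All.{u} fun {_ _ _ z Q _ _ _ _ _ _ _ _ π _ _ _ M _ _} s _ Y B A δ => C2 s Y B A δ → Lc z Q A π M δ →
  (∀ n ∈ N_(A), n * δ * n⁻¹ ∈ zpowers δ → n * z * n⁻¹ = z) → ∀ c ∈ C_[δ], c * z * c⁻¹ ∈ C_[z] → c * z * c⁻¹ = z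

def ZStmt : Prop := ∀ {G : Type u} [Group G] [Finite G] (X : Subgroup G) (z : G), z ∈ X → orderOf z = 2 →
  (∀ c ∈ X, c * z * c⁻¹ ∈ C_[z] → c * z * c⁻¹ = z) →
  (∀ R ≤ X, Odd (Nat.card R) → X ≤ N_(R) → R ≤ C_[z]) → X ≤ C_[z]

def R1Stmt : Prop := All.{u} fun {_ _ _ z Q _ _ _ _ Γ _ _ _ _ _ _ d M _ _} _ _ _ _ _ _ => M1Stmt →
  ∀ ρ : M →* Spor.M22, Function.Surjective ρ → (∀ m : M, ρ m = 1 ↔ (m : Γ) ∈ zpowers d) →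
  ∀ x ∈ C_[z], orderOf x = 3 → ∀ r ∈ Q, r ≠ 1 → r ≠ z → r ∈ C_[x] →
  ∀ R ≤ C_[z] ⊓ C_[x] ⊓ C_[r], Odd (Nat.card R) → R ≤ zpowers x

def R2Stmt : Prop := ∀ {G : Type u} [Group G] [Finite G] {A N B : Subgroup G} {D : Set G} {z δ : G},
  L.Fz.Cf A N B D z → L.Fz.Nb B D z → Vz A N D z δ →
  (∀ x ∈ C_[z], orderOf x = 3 → ∀ r ∈ B, r ≠ 1 → r ≠ z → r ∈ C_[x] →
    ∀ R ≤ C_[z] ⊓ C_[x] ⊓ C_[r], Odd (Nat.card R) → R ≤ zpowers x) →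
  ∀ U ≤ A ⊓ C_[δ], Nat.card U = 16 → ∀ R ≤ C_[δ] ⊓ C_(U), Odd (Nat.card R) → R ≤ C_[z]

/-- coprime generation -/
def GStmt : Prop := ∀ {G : Type u} [Group G] [Finite G] (W R H : Subgroup G), (∀ x ∈ W, x * x = 1) → Nat.card W = 32 →
  Odd (Nat.card R) → W ≤ N_(R) → (∀ U ≤ W, Nat.card U = 16 → R ⊓ C_(U) ≤ H) → R ≤ H

def R3Stmt : Prop := ∀ {G : Type u} [Group G] [Finite G] {A N B : Subgroup G} {D : Set G} {z δ : G},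
  L.Fz.Cf A N B D z → L.Fz.Nb B D z → Vz A N D z δ → ∃ x ∈ C_[z], IsConj δ x ∧ ∃ r ∈ B, r ≠ 1 ∧ r ≠ z ∧ r ∈ C_[x]

/-- the 3-local data -/
structure T3 {G : Type u} [Group G] (z δ : G) (θ : ↥(C_[z] ⊓ C_[δ]) →* Spor.M22) : Prop extends Th z δ θ where
  c81 : ¬ 81 ∣ Nat.card C_[z]
  nH : ∀ g, g * δ * g⁻¹ ∈ zpowers δ → g ∈ C_[z]
  inv : ∃ g ∈ C_[z], g * δ * g⁻¹ = δ⁻¹
  fu : ∃ x ∈ C_[z], IsConj δ x ∧ ∀ h ∈ C_[z], h * x * h⁻¹ ∉ zpowers δ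

def O4Stmt : Prop := ∀ {G : Type u} [Group G] [Finite G] {z δ : G} {θ : ↥(C_[z] ⊓ C_[δ]) →* Spor.M22}, T3 z δ θ → M2Stmt →
  ∀ x y : G, orderOf x = 3 → orderOf y = 3 → IsConj x y

def O5Stmt : Prop := ∀ {G : Type u} [Group G] [Finite G] {z δ : G} {θ : ↥(C_[z] ⊓ C_[δ]) →* Spor.M22}, T3 z δ θ → M2Stmt →
  M3Stmt → ∀ R : Sylow 3 G, (R : Subgroup G) ≤ C_[z] →
  IsExtraspecial 3 ↥(R : Subgroup G) ∧ Nat.card ↥(R : Subgroup G) = 27 ∧ Monoid.exponent ↥(R : Subgroup G) = 3 ∧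
    N_((R : Subgroup G)) ≤ C_[z] ∧ Nat.card ↥(N_((R : Subgroup G))) = 864

end L.Jt
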