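import Cfsg.Agent.L.Js0

/-! Interface for the 5-local statement S5572 (Janko-four type), namespace `L.Jf`. -/

set_option autoImplicit false
open Cfsg BG Subgroup H01.XS Cfsg.Agent.H06.J Cfsg.Agent.H23.K

namespace L.Jf
universe u

structure Lo {G : Type u} [Group G] (L Q : Subgroup G) (z δ : G) : Prop where
  QL : Q ≤ L
  nQ : L ≤ N_(Q)
  ex : IsExtraspecial 2 Q
  cQ : Nat.card Q = 32
  zQ : z ∈ Q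
  δL : δ ∈ L
  δ3 : orderOf δ = 3
  fp : ∀ x ∈ Q, x ∈ C_[δ] → x = 1 ∨ x = z
  iv : ∃ w ∈ L, w * δ * w⁻¹ = δ⁻¹

def Hb {G : Type u} [Group G] (z : G) : Prop := ¬ 25 ∣ Nat.card C_[z] ∧ ∀ σ ∈ C_[z], orderOf σ = 5 →
  Nat.card ↥(C_[z] ⊓ C_[σ]) = 960 ∧ Nat.card ↥(C_[z] ⊓ N_(zpowers σ)) = 3840 ∧ ∃ Q δ, Lo (C_[z] ⊓ C_[σ]) Q z δ

def AStmt : Prop := All.{u} fun {_ _ _ z _ _ _ _ _ Γ _ _ _ _ _ _ d M _ _} s _ Y B A δ => C2 s Y B A δ →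
  ∀ ρ : M →* Spor.M22, Function.Surjective ρ → (∀ m : M, ρ m = 1 ↔ (m : Γ) ∈ zpowers d) → Hb z

def WStmt : Prop := ∀ {X : Type u} [Group X] [Finite X] (Q : Subgroup X) (z δ : X), orderOf z = 2 → Nat.card C_[z] = 192 →
  Lo C_[z] Q z δ → ∃ r ∈ Q, r ≠ z ∧ orderOf r = 2 ∧ ¬ Nat.card C_[r] ∣ 16

def XStmt : Prop := ∀ {X : Type u} [Group X] [Finite X] (Q : Subgroup X) (z δ : X), orderOf z = 2 → Nat.card C_[z] = 192 →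
  Lo C_[z] Q z δ → (∀ w : X, orderOf w = 2 → Nat.card C_[w] ∣ 16 ∨ IsConj z w) → ¬ 9 ∣ Nat.card X → WStmt.{u} →
  ∃ (E : Subgroup X) (_ : E.Normal), IsElementaryAbelian 2 E ∧ Nat.card ↥E = 8 ∧
    Nonempty (X ⧸ E ≃* Matrix.SpecialLinearGroup (Fin 3) (ZMod 2)) ∧ ∀ K : Subgroup X, ¬ E.IsComplement' K

def FStmt : Prop := ∀ {G : Type u} [Group G] [Finite G] (σ z : G), XStmt.{u} → WStmt.{u} → Hb z → orderOf σ = 5 → orderOf z = 2 →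
  σ ∈ C_[z] → (∀ w ∈ C_[σ], orderOf w = 2 → Nat.card ↥(C_[w] ⊓ C_[σ]) ∣ 80 ∨ IsConj z w) →
  (∀ x ∈ C_[σ], orderOf x = 3 → Nat.card ↥(C_[x] ⊓ C_[σ]) ∣ 30) →
  ¬ (25 ∣ Nat.card G) ∧
    (∃ J : Subgroup G, IsInternalDirectProduct (zpowers σ) J C_(zpowers σ) ∧
      ∃ (E : Subgroup ↥J) (_ : E.Normal), IsElementaryAbelian 2 E ∧ Nat.card ↥E = 8 ∧
        Nonempty (↥J ⧸ E ≃* Matrix.SpecialLinearGroup (Fin 3) (ZMod 2)) ∧ ∀ K : Subgroup ↥J, ¬ E.IsComplement' K) ∧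
    Nat.card ↥(N_(zpowers σ)) = 2 ^ 8 * 3 * 5 * 7

def M5Stmt : Prop := ∀ α : MulAut Spor.M22, orderOf α = 5 → Nat.card C_[α] ∣ 10
def M20Stmt : Prop := ∃ x y : Cfsg.M24, orderOf x = 5 ∧ orderOf y = 4 ∧ y * x * y⁻¹ = x ^ 2

def BStmt : Prop := ∀ {G : Type u} [Group G] [Finite G] (z t σ : G) (V K : Subgroup G), M5Stmt → Hb z → L.Js.Pu z →
  C_[t] ≤ N_(V) → IsElementaryAbelian 2 V → Nat.card V = 2 ^ 11 → K ⊓ V = ⊥ → K ⊔ V = C_[t] →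
  Nonempty (↥K ≃* MulAut ↥Spor.M22) → σ ∈ C_[t] → orderOf σ = 5 → Nat.card ↥(C_[t] ⊓ C_[σ]) ∣ 80

def TStmt : Prop := ∀ {G : Type u} [Group G] [Finite G] (δ x σ : G), Nat.card ↥(center ↥C_[δ]) = 6 →
  Spor.IsoM22 (↥C_[δ] ⧸ center ↥C_[δ]) → IsConj δ x → σ ∈ C_[x] → orderOf σ = 5 → Nat.card ↥(C_[x] ⊓ C_[σ]) ∣ 30

def RStmt : Prop := ∀ {G : Type u} [Group G] [Finite G] (z z' σ : G) (V K : Subgroup G), M20Stmt → ¬ 25 ∣ Nat.card C_[z] →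
  K ≤ N_(V) → Spor.IsoM24 K → IsConj z z' → Set.ncard {v : G | ∃ n ∈ N_(V), n * z' * n⁻¹ = v} = 1771 → σ ∈ C_[z] →
  orderOf σ = 5 → ∃ R : Subgroup G, zpowers σ ≤ R ∧ R ≤ N_(zpowers σ) ∧ Nat.card ↥R = 20 ∧ R ⊓ C_(zpowers σ) = zpowers σ

end L.Jf
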