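import Cfsg.Agent.L.Fz0
import Cfsg.Agent.H20.FtW

/-! Assembly of S5446 and S5448 from the parts of `L.Fz0`. -/

set_option autoImplicit false
open Cfsg BG Subgroup H20.FtW
open scoped Pointwise

namespace L.Fz
universe u
variable {G : Type u} [Group G]

theorem tq {H : Type*} [Group H] (g : G) {A M A' M' : Subgroup G} (a : A' = cj g A) (m : M' = cj g M)
    (h : ∃ _ : (A.subgroupOf M).Normal, Nonempty (↥M ⧸ A.subgroupOf M ≃* H)) :
    ∃ _ : (A'.subgroupOf M').Normal, Nonempty (↥M' ⧸ A'.subgroupOf M' ≃* H) := by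
  subst a m
  obtain ⟨n, ⟨e⟩⟩ := h
  have k : (A.subgroupOf M).map (cjEquiv g M : M →* cj g M) = (cj g A).subgroupOf (cj g M) := by
    ext x
    obtain ⟨y, rfl⟩ := (cjEquiv g M).surjective x
    rw [mem_subgroupOf, show ((cjEquiv g M y : cj g M) : G) = g * y * g⁻¹ from rfl, conj_mem_cj_iff]
    exact ⟨fun ⟨w, a, b⟩ => by rwa [← (cjEquiv g M).injective b], fun a => ⟨y, a, rfl⟩⟩
  have n' : ((cj g A).subgroupOf (cj g M)).Normal := k ▸ n.map _ (cjEquiv g M).surjective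
  exact ⟨n', ⟨(QuotientGroup.congr _ _ (cjEquiv g M) k).symm.trans e⟩⟩

theorem fin (K : KStmt.{u}) (N : NStmt.{u}) (X : XStmt.{u}) (T' : TStmt.{u}) (S : SStmt.{u}) (F : FStmt.{u}) [Finite G]
    {A0 B0 : Subgroup G} {z : G} (u : ∀ P : Subgroup G, IsPGroup 2 P → Un P)
    (h : Cf A0 N_(A0) B0 {t | t ∈ A0 ∧ t ≠ 1 ∧ ¬ IsConj z t} z) (T : Sylow 2 G) (A M : Subgroup G)
    (hA : A = Cfsg.thompsonSubgroupOf 2 (T : Subgroup G)) (hM : M = Subgroup.normalizer (A : Set G)) :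
    (Cfsg.IsElementaryAbelian 2 A ∧ Nat.card A = 2 ^ 11 ∧ ∃ _ : (A.subgroupOf M).Normal, Nonempty (↥M ⧸ A.subgroupOf M ≃* ↥Cfsg.M24)) ∧
    ∀ t : G, t ∈ A → orderOf t = 2 → ¬ IsConj z t → ∃ _ : (A.subgroupOf (M ⊓ Subgroup.centralizer ({t} : Set G))).Normal,
      Nonempty (↥(M ⊓ Subgroup.centralizer ({t} : Set G)) ⧸ A.subgroupOf (M ⊓ Subgroup.centralizer ({t} : Set G)) ≃*
        ↥(Cfsg.M24 ⊓ MulAction.stabilizer (Equiv.Perm Cfsg.GolayPt) ({none, some 0} : Set Cfsg.GolayPt))) := by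
  have k := K h
  have n := N h k
  obtain ⟨Ω, τ, σ, r⟩ := T' h n (X h k n)
  obtain ⟨e, he⟩ := S h n r
  obtain ⟨f1, f2⟩ := F e h k n r he
  have hT := isSylowIn_top Nat.prime_two T
  have e0 : EA A0 := h.sq
  obtain ⟨g, -, l⟩ := sylow_Jsub Nat.prime_two hT e0.pg le_top
  have c' := (BG.card_cj g A0).trans h.cA
  have e' := e0.cj g
  rw [th_eq (u T (hT.pg Nat.prime_two)) l e' c'] at hA
  have m : M = cj g N_(A0) := by rw [hM, hA, cj_norm]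
  refine ⟨⟨hA ▸ ⟨⟨⟨fun x y => Subtype.ext (e'.comm x.2 y.2)⟩⟩, fun x i => (pow_two x).trans (e' x i)⟩, hA ▸ c', tq g hA m f1⟩,
    fun t i o c => ?_⟩
  obtain ⟨y, hy, rfl⟩ := mem_cj'.1 (hA ▸ i)
  refine tq g hA (by rw [m, cj_inf, cj_cent1]) (f2 y ⟨hy, ?_, fun j => c (j.trans (isConj_iff.2 ⟨g, rfl⟩))⟩)
  rintro rfl
  simp at o

end L.Fz
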