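import Cfsg.Agent.L.J2C

/-! Involutions of the Hall-Janko group (namespace L.J2P): `cls2`, `cB_card`, `cB_iso`, `cB_core`, `nB_iso`. -/

set_option autoImplicit false
set_option maxRecDepth 100000

namespace L.J2P
open H13 H14.PK H14.PK.TS H27.PKx L.PK Cfsg

theorem cls2 (x : Spor.J2) (hx : orderOf x = 2) : IsConj x (S.el tA) ∨ IsConj x (S.el tB) := by
  obtain ⟨g, z, hz, e⟩ := p2_full.sylow_classes (p := 2) (k := 7) (m := 4725) (by norm_num) (by decide +kernel)
    H15.J2.card_J2 (by norm_num) (fun c hc => in_S (allL_iff.1 (band_eq_true.1 p2_cs).1 c hc)) (band_eq_true.1 p2_cs).2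
    (x := x) (orderOf_dvd_iff_pow_eq_one.1 (by rw [hx]; norm_num))
  have i : IsConj x (S.el z) := isConj_iff.2 ⟨g, e⟩
  simp only [List.mem_cons, List.not_mem_nil, or_false] at hz
  rcases hz with rfl | rfl | rfl
  · rw [el_idv, isConj_one_left] at i; simp [i] at hx
  · exact .inl i
  · exact .inr i

theorem inB : S.In ⊤ tB := in_S (by decide +kernel)

theorem cB_card : Nat.card (Subgroup.centralizer {S.el tB}) = 240 := by
  rw [← top_inf_eq (Subgroup.centralizer _)]; exact c2_full.card.trans (by decide +kernel)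

/-- tables of the alternating groups -/
noncomputable abbrev TA (n : ℕ) [NeZero n] (h : n ≤ 2 ^ 3) : TS (alternatingGroup (Fin n)) 3 n :=
  (permTS 3 n ⟨by norm_num, h⟩).sub _

theorem card_A5 : Nat.card (alternatingGroup (Fin 5)) = 60 := by rw [nat_card_alternatingGroup]; simp [Nat.factorial]

theorem cR_in {x : ℕ × ℕ × ℕ × ℕ} (hx : x ∈ cR) : S.In (Subgroup.centralizer {S.el tB}) x.1 ∧
    H14.PK.permOk 3 2 x.2.1 = true ∧ H14.PK.permOk 3 2 x.2.2.1 = true ∧ H14.PK.permOk 3 5 x.2.2.2 = true := by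
  have := allL_iff.1 cR_ok x hx
  simp only [band_eq_true] at this
  exact ⟨(in_S this.1.1).comm inB this.1.2, this.2⟩

theorem cB_iso : Nonempty (Subgroup.centralizer {S.el tB} ≃*
    (Equiv.Perm (Fin 2) × Equiv.Perm (Fin 2)) × alternatingGroup (Fin 5)) :=
  iso_top (S₁ := S) (S₂ := ((permTS 3 2 (by norm_num)).prod (permTS 3 2 (by norm_num)) (w := 3) (by norm_num) (by norm_num)).prod
    (TA 5 (by norm_num)) (w := 4) (by norm_num) (by norm_num)) (Ps := ciP)
    (List.forall_mem_map.2 fun _ hx => ⟨(cR_in hx).1,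
      ((in_permTS (cR_in hx).2.1).prod (in_permTS (cR_in hx).2.2.1)).prod (in_alt (cR_in hx).2.2.2).sub⟩)
    cB_card (by rw [Nat.card_prod, Nat.card_prod, card_A5, Nat.card_perm]; simp) ci_ok

theorem cB_core : pCoreOf 2 (Subgroup.centralizer {S.el tB}) = S.cl uN ∧ S.Full (S.cl uN) ucc := by
  obtain ⟨φ, h1, h2, h3⟩ := hom_ker (S₁ := S) (S₂ := TA 5 (by norm_num)) (Ps := chP)
    (List.forall_mem_map.2 fun _ hx => ⟨(cR_in hx).1, (in_alt (cR_in hx).2.2.2).sub⟩) cB_card card_A5 ch_ok (k := 4) rfl u_ker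
  refine ⟨?_, h3⟩
  rw [← h2, pCoreOf]
  congr 1
  have := Fact.mk Nat.prime_two
  refine le_antisymm ?_ (H02.le_pCore (IsPGroup.of_card (n := 2) ?_))
  · rw [← Subgroup.map_eq_bot_iff]
    refine ((Subgroup.Normal.map inferInstance φ (MonoidHom.range_eq_top.1 h1)).eq_bot_or_eq_top).resolve_right fun c => ?_
    obtain ⟨k, hk⟩ := ((H02.pCore_isPGroup 2 (Subgroup.centralizer {S.el tB})).map φ).exists_card_eq
    rw [c, Subgroup.card_top, card_A5] at hk
    exact absurd ((Nat.prime_dvd_prime_iff_eq Nat.prime_three Nat.prime_two).1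
      (Nat.prime_three.dvd_of_dvd_pow (hk ▸ (by norm_num : 3 ∣ 60)))) (by norm_num)
  · rw [← Subgroup.card_map_of_injective (Subgroup.subtype_injective _), h2, h3.card]; decide +kernel

theorem nB_card : Nat.card (Subgroup.normalizer (S.cl uN : Set Spor.J2)) = 720 := by
  have h1 : S.Base [0, 3, 1, 26] := g2_full.base
  have h2 : ∀ t ∈ uN, S.In ⊤ t := in_L (by decide +kernel)
  have h3 : ∀ t ∈ uB, S.In ⊤ t := in_L (by decide +kernel)
  have h4 : tB ∈ uN := memL_iff.1 (by decide +kernel)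
  have h5 : uB.Nodup := by decide +kernel
  exact card_norm g2_full h1 h2 cB_core.2 h4 h3 h5 (by with_reducible exact n_cnt)

theorem nB_iso : Nonempty (Subgroup.normalizer (S.cl uN : Set Spor.J2) ≃* alternatingGroup (Fin 4) × alternatingGroup (Fin 5)) := by
  have o : ∀ t ∈ uN, S.In ⊤ t := in_L (by decide +kernel)
  refine iso_top (S₁ := S) (S₂ := (TA 4 (by norm_num)).prod (TA 5 (by norm_num)) (w := 4) (by norm_num) (by norm_num)) (Ps := niP)
    (List.forall_mem_map.2 fun x hx => ?_) nB_card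
    (by rw [Nat.card_prod, card_A5, nat_card_alternatingGroup]; simp [Nat.factorial]) ni_ok
  have := allL_iff.1 nR_ok x hx
  simp only [band_eq_true] at this
  have h := in_S this.1.1
  exact ⟨h.of_el ((nrmT_iff o cB_core.2 _).1 (h.tb_el.symm ▸ this.1.2)), (in_alt this.2.1).sub.prod (in_alt this.2.2).sub⟩

end L.J2P
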