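import Cfsg.Agent.L.Jt1
import Cfsg.Agent.H10.KH
import Cfsg.Agent.H02.KL
import Cfsg.Agent.H27.KB
import Cfsg.Agent.H27.KU
import Cfsg.Agent.H21.KG
import Cfsg.Agent.H22.KE
import Cfsg.Agent.H28.KC
import Cfsg.Agent.H11.K89
import Cfsg.Agent.H07.KN
import Cfsg.Agent.H26.KX
import Cfsg.Agent.H14.KF
import Cfsg.Agent.H09.KO
import Cfsg.Agent.H02.FzK
import Cfsg.Agent.H08.FzN
import Cfsg.Agent.H04.FzX
import Cfsg.Agent.H19.TM1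
import Cfsg.Agent.H27.TP
import Cfsg.Agent.H29.TT
import Cfsg.Agent.H11.TV
import Cfsg.Agent.H02.TZ2
import Cfsg.Agent.H11.TW1
import Cfsg.Agent.H28.TW2
import Cfsg.Agent.H15.TZ
import Cfsg.Agent.H16.TG
import Cfsg.Agent.H08.TR3

/-! The 3-local data from the four parts `L Z1 R1 R2`. -/

set_option autoImplicit false
open Cfsg BG Subgroup

namespace L.Jt
universe u

theorem fin2 (Ls : LStmt.{u}) (Z1 : Z1Stmt.{u}) (R1 : R1Stmt.{u}) (R2 : R2Stmt.{u})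
    {G : Type u} [Group G] [Finite G] [IsSimpleGroup G] (hG : ¬ IsMulCommutative G) (z : G) (P : Subgroup G)
    (hJ : IsOfJankoFourTypeWith z P) :
    ∃ δ θ, T3 z δ θ ∧ zpowers δ = P ∧ centralizer (P : Set G) = C_[δ] ∧ z ∈ ⁅C_[z] ⊓ C_[δ], C_[z] ⊓ C_[δ]⁆ :=
  fin H10.KH.h2 Cfsg.Agent.H02.KL.l2 @H27.KB.b @H27.KU.u H26.KX.x H21.KG.G H14.KF.f H22.KE.e @H09.KO.o @H28.KC.c
    H11.K89.n89 H07.KN.n Cfsg.Agent.H02.FzK.k H08.FzN.n H04.FzX.x Cfsg.Agent.H19.TM1.m1 @H27.TP.p Ls H29.TT.t H11.TV.v Z1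
    Cfsg.Agent.H02.TZ2.z2 H11.TW1.w1 @H28.TW2.w2 H15.TZ.z R1 R2 @H16.TG.g H08.TR3.r3 hG z P hJ

end L.Jt
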