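import Cfsg.Agent.L.Js0
import Cfsg.Agent.L.Jt2
import Cfsg.Agent.H28.FzT
import Cfsg.Agent.H08.WP
import Cfsg.Agent.S5563
import Cfsg.Agent.S5564
import Cfsg.Agent.S5567
import Cfsg.Agent.S5568

/-! Assembly of S5573. -/

set_option autoImplicit false
open Cfsg BG Subgroup H01.XS Cfsg.Agent.H06.J H20.FtW Cfsg.Agent.H23.K

namespace L.Js
universe u

theorem pu {G : Type u} [Group G] [Finite G] [sG : IsSimpleGroup G] (hG : ¬ IsMulCommutative G) (z : G)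
    (hJ : IsOfJankoFourTypeAt z) : Pu z := by
  intro V hV hc I IV hI
  have oo : OStmt.{u} := @H09.KO.o
  have cc : Cfsg.Agent.H23.K.CStmt.{u} := @H28.KC.c
  have u := @H27.KU.u _ _ _ (Cfsg.Agent.S5566.result hG ⟨z, hJ⟩)
  obtain ⟨P, hJ⟩ := hJ
  obtain ⟨Q, V', _, _, _, Γ, _, _, f, π, ν, T, d, M, β, q, s, dc, ou, ρ, ρs, ρk⟩ := @H27.KB.b _ _ _ z P hJ
  obtain ⟨K₀, Y₀, h0⟩ := H10.KH.h2
  have g := s.gm
  obtain ⟨K, Y, hk, dK⟩ := Cfsg.Agent.H02.KL.l2 ρ g.d3 g.dM g.Md dc ρs ρk h0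
  obtain ⟨B, p⟩ := _root_.H21.JU1.u1 g hk.hx hk.KM dK
  have pi := _root_.H18.JU.u2 g hk.hx hk.KM p
  obtain ⟨A, Az, A2, cA, AY, mA⟩ := _root_.H26.JE.e s hk.hx hk.KM p
  obtain ⟨δ, δz, δd, δ3⟩ := _root_.H26.JE.exδ s
  have x : Cx s K Y B A δ := ⟨hk, dK, p, pi, _root_.H22.JU.u3 g hk.hx hk.KM dK p pi, Az, A2, cA, AY, mA, u, δz, δd, δ3, ou⟩
  have c : C2 s Y B A δ := H26.KX.x s K Y B A δ x
  have l := s.md.lx
  have fu : ∃ m ∈ N_(A), m * z * m⁻¹ ≠ z := H14.KF.f s K Y B A δ x c sG hG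
  obtain ⟨O1, O2, pB, c1, c2, t1, t2⟩ := oo s K Y B A δ x c
  obtain ⟨E, F', pA, cE, cF, zE, tE, tF, iE⟩ := cc s K Y B A δ x c (H21.KG.G s K Y B A δ x)
  have nM : ∀ m ∈ N_(A), ∀ y ∈ A, m * y * m⁻¹ ∈ A := fun m i y j => (mem_normalizer_iff.1 i y).1 j
  have zB : z ∈ s.md.pull B := ⟨l.aes.mem, s.md.zz ▸ zero_mem _⟩
  have BA : s.md.pull B ≤ A := c.e3 ▸ inf_le_left
  have QN : Q ≤ N_(A) := fun y o => (c.mN y (l.le o)).2 fun v i => by rwa [(s.ker y (l.le o)).2 o, g.one]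
  have zc : ∀ y ∈ C_[z], y * z = z * y := fun y o => mem_cent1.1 o
  have ob : Ob A N_(A) (s.md.pull B) z O1 O2 E F' := by
    refine ⟨A2, cA, le_normalizer, nM, fun m _ => c.cen m, l.z1, zB, BA, by rw [s.md.card_pull, p.cB], fun m i j y o => ?_,
      ⟨Q, QN, IsPGroup.of_card (n := 13) s.card, fun y _ k => l.cz k⟩, fun t i j k => ?_, c.cN, pB, c1, c2, t1, t2, pA, cE,
      cF, zE, tE, tF, fun y i j => ?_, fu, fun k => ?_⟩
    · exact c.e3.le ⟨nM m i y (BA o), (mem_normalizer_iff.1 (l.norm (mem_cent1.2 (mul_inv_eq_iff_eq_mul.1 j))) y).1 o.1⟩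
    · by_contra n
      refine (l.cz fun r o => (l.cm o i.1).resolve_right fun w => n ⟨r, QN o, ?_, ?_⟩).elim j k
      · rw [zc r (l.le o), mul_inv_cancel_right]
      · rw [w, mul_inv_cancel_right, zc t (l.le i.1)]
    · obtain ⟨r, rA, rδ, w⟩ := c.YA _ (AY y i)
      refine ⟨r, iE r rA rδ fun o => j (c.e3.le ⟨i, (s.ker y (Az i)).1 (w ▸ (s.ker r (Az rA)).2 o.1)⟩),
        c.e3.le ⟨mul_mem rA i, (s.ker _ (Az (mul_mem rA i))).1 ?_⟩⟩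
      rw [_root_.H26.JE.mul s r (Az rA) y (Az i), w, hk.hx.Y2 _ (AY y i)]
    · obtain ⟨m, i, j⟩ := fu
      exact j (H22.KE.e s K Y B A δ x c k m i)
  obtain ⟨cf, -, cN⟩ := H07.KN.n ob (H11.K89.n89 A2 cA ob.AM nM ob.cen)
  have kb := Cfsg.Agent.H02.FzK.k cf
  have nb := H08.FzN.n cf kb
  obtain ⟨Ω, τ, σ, r⟩ := H28.FzT.t cf nb (H04.FzX.x cf kb nb)
  have eV : EA V := fun y o => (pow_two y).symm.trans (hV.2 y o)
  obtain ⟨T0, lT⟩ := eV.pg.exists_le_sylow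
  have hT := isSylowIn_top Nat.prime_two T0
  obtain ⟨a, -, la⟩ := sylow_Jsub Nat.prime_two hT (EA.pg A2) le_top
  obtain rfl : V = cj a A := (u T0 T0.2).2 V lT _ la eV (EA.cj A2 a) hc ((BG.card_cj a A).trans cA)
  rw [← BG.card_cj a⁻¹ I]
  refine H08.WP.pu r _ fun y o n => ?_
  have o' := mem_cj.1 o
  rw [inv_inv] at o'
  refine ⟨by simpa [mul_assoc] using mem_cj.1 (IV o'), n, fun ⟨m, _, w⟩ => hI _ o' (fun k => n (conj_eq_one_iff.1 k)) ?_⟩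
  exact (isConj_iff.2 ⟨m, w⟩).trans (isConj_iff.2 ⟨a, rfl⟩)

theorem ha (A : AStmt.{u}) {G : Type u} [Group G] [Finite G] (z : G) (hJ : IsOfJankoFourTypeAt z) : Ha z := by
  obtain ⟨P, hJ⟩ := hJ
  obtain ⟨Q, V', _, _, _, Γ, _, _, f, π, ν, T, d, M, β, q, s, dc, ou, ρ, ρs, ρk⟩ := @H27.KB.b _ _ _ z P hJ
  exact A s ρ dc ρs ρk

theorem fin (X : XStmt.{u}) (F : FStmt.{u}) (A : AStmt.{u}) (B : BStmt.{u}) (C : CStmt.{u}) (m7 : M7Stmt) (m21 : M21Stmt)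
    {G : Type u} [Group G] [Finite G] [IsSimpleGroup G] (hG : ¬ IsMulCommutative G) (z : G) (hJ : IsOfJankoFourTypeAt z)
    (h69 : ∀ t : G, orderOf t = 2 → ¬ IsConj z t → ∃ V K : Subgroup G, V ≤ Subgroup.centralizer ({t} : Set G) ∧
      K ≤ Subgroup.centralizer ({t} : Set G) ∧
      Subgroup.centralizer ({t} : Set G) ≤ Subgroup.normalizer (V : Set G) ∧ Cfsg.IsElementaryAbelian 2 V ∧ Nat.card ↥V = 2 ^ 11 ∧
      K ⊓ V = ⊥ ∧ K ⊔ V = Subgroup.centralizer ({t} : Set G) ∧ Nonempty (↥K ≃* MulAut ↥Cfsg.Spor.M22))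
    (S : Subgroup G) (hS : Nat.card ↥S = 7) (hSz : S ≤ Subgroup.centralizer ({z} : Set G)) :
    ¬ (49 ∣ Nat.card G) ∧
    (∃ I : Subgroup G, Cfsg.IsInternalDirectProduct S I (Subgroup.centralizer (S : Set G)) ∧ Nonempty (↥I ≃* Equiv.Perm (Fin 5))) ∧
    Nat.card ↥(Subgroup.normalizer (S : Set G)) = 3 * Nat.card ↥(Subgroup.centralizer (S : Set G)) ∧
    Nat.card ↥(Subgroup.normalizer (S : Set G)) = 2 ^ 3 * 3 ^ 2 * 5 * 7 := by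
  have a := ha A z hJ
  have p := pu hG z hJ
  have : Fact (Nat.Prime 7) := ⟨by norm_num⟩
  obtain ⟨⟨σ, σS⟩, o7⟩ := exists_prime_orderOf_dvd_card' (G := S) 7 (by rw [hS])
  rw [← Subgroup.orderOf_coe] at o7
  change orderOf σ = 7 at o7
  obtain rfl : zpowers σ = S := Subgroup.eq_of_le_of_card_ge (zpowers_le.2 σS) (by rw [Nat.card_zpowers, o7, hS])
  have σz : σ ∈ C_[z] := hSz σS
  have b : ∀ w ∈ C_[σ], orderOf w = 2 → ¬ IsConj z w → Nat.card ↥(C_[w] ⊓ C_[σ]) ∣ 56 := fun w i o n => by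
    obtain ⟨V, K, -, -, h1, h2, h3, h4, h5, h6⟩ := h69 w o n
    exact B z w σ V K m7 a p h1 h2 h3 h4 h5 h6 (mem_cent1.2 (mem_cent1.1 i).symm) o7
  obtain ⟨T⟩ : Nonempty (Sylow 2 G) := inferInstance
  obtain ⟨V, ⟨-, hV, hc⟩, -⟩ := Cfsg.Agent.S5566.result hG ⟨z, hJ⟩ T
  obtain ⟨-, K, k1, -, -, k4⟩ := Cfsg.Agent.S5567.result hG ⟨z, hJ⟩ V hV hc
  obtain ⟨z', t, -, tV, t1, -, tz, -, c276, -⟩ := Cfsg.Agent.S5568.result hG z hJ V hV hc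
  have h64 := Cfsg.Agent.S5564.result hG ⟨z, hJ⟩
  obtain ⟨P, hP⟩ := hJ
  have nP := (Cfsg.Agent.S5563.result hG z P hP).2.2.2.2
  have cP : Nat.card P = 3 := hP.2.2.2.2.2.1
  have : Fact (Nat.Prime 3) := ⟨by norm_num⟩
  obtain ⟨⟨δ, δP⟩, o3⟩ := exists_prime_orderOf_dvd_card' (G := P) 3 (by rw [cP])
  rw [← Subgroup.orderOf_coe] at o3
  change orderOf δ = 3 at o3
  obtain rfl : zpowers δ = P := Subgroup.eq_of_le_of_card_ge (zpowers_le.2 δP) (by rw [Nat.card_zpowers, o3, cP])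
  have cδ : C_[δ] ≤ C_[z] := fun g i => nP (centralizer_le_normalizer _ (by
    rintro _ ⟨k, rfl⟩
    exact ((show Commute δ g from (mem_cent1.1 i).symm).zpow_left k).eq))
  obtain ⟨U, U1, U2, U3⟩ := C z δ σ t V K m21 a p hV hc k1 k4 tV t1 tz c276 o3 cδ h64 σz o7
  refine F σ z U X o7 hP.1 (mem_cent1.2 (mem_cent1.1 σz).symm) (fun w i o => ?_) U1 U2
    (fun w i n => ⟨(U3 w i n).1, b w (U1 i) (U3 w i n).1 (U3 w i n).2⟩) (a.2 σ σz o7).2.1 (a.2 σ σz o7).2.2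
  by_cases n : IsConj z w
  · obtain ⟨g, rfl⟩ := isConj_iff.1 n
    have e : C_[g * z * g⁻¹] ⊓ C_[σ] = cj g (C_[z] ⊓ C_[g⁻¹ * σ * g]) := by
      rw [cj_inf, cj_cent1, cj_cent1, show g * (g⁻¹ * σ * g) * g⁻¹ = σ by group]
    have := a.2 (g⁻¹ * σ * g) (mem_cent1.2 (by
      have := mem_cent1.1 i
      rw [show g⁻¹ * σ * g * z = g⁻¹ * (σ * (g * z * g⁻¹)) * g by group, ← this]; group))
      ((SemiconjBy.orderOf_eq g (show g * (g⁻¹ * σ * g) = σ * g by group)).trans o7)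
    rw [e, BG.card_cj]
    exact .inr ⟨this.2.1, this.1⟩
  · exact .inl (b w i o n)

end L.Js
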