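import Cfsg.Agent.L.Jf0
import Cfsg.Agent.L.Js1
import Cfsg.Agent.S5569

/-! Assembly of S5572. -/

set_option autoImplicit false
open Cfsg BG Subgroup H01.XS Cfsg.Agent.H06.J H20.FtW Cfsg.Agent.H23.K

namespace L.Jf
universe u

theorem hb (As : AStmt.{u}) {G : Type u} [Group G] [Finite G] [IsSimpleGroup G] (hG : ¬ IsMulCommutative G) (z : G)
    (hJ : IsOfJankoFourTypeAt z) : Hb z := by
  have u := @H27.KU.u _ _ _ (Cfsg.Agent.S5566.result hG ⟨z, hJ⟩)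
  obtain ⟨P, hJ⟩ := hJ
  obtain ⟨Q, V', _, _, _, Γ, _, _, f, π, ν, T, d, M, β, q, s, dc, ou, ρ, ρs, ρk⟩ := @H27.KB.b _ _ _ z P hJ
  obtain ⟨K₀, Y₀, h0⟩ := H10.KH.h2
  have g := s.gm
  obtain ⟨K, Y, hk, dK⟩ := Cfsg.Agent.H02.KL.l2 ρ g.d3 g.dM g.Md dc ρs ρk h0
  obtain ⟨B, p⟩ := _root_.H21.JU1.u1 g hk.hx hk.KM dK
  have pi := _root_.H18.JU.u2 g hk.hx hk.KM p
  obtain ⟨A, Az, A2, cA, AY, mA⟩ := _root_.H26.JE.e s hk.hx hk.KM p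
  obtain ⟨δ, δz, δd, δ3⟩ := _root_.H26.JE.exδ s
  have x : Cx s K Y B A δ := ⟨hk, dK, p, pi, _root_.H22.JU.u3 g hk.hx hk.KM dK p pi, Az, A2, cA, AY, mA, u, δz, δd, δ3, ou⟩
  exact As s K Y B A δ x (H26.KX.x s K Y B A δ x) ρ ρs ρk

theorem fin (As : AStmt.{u}) (W : WStmt.{u}) (X : XStmt.{u}) (F : FStmt.{u}) (B : BStmt.{u}) (Ts : TStmt.{u}) (Rs : RStmt.{u})
    (m5 : M5Stmt) (m20 : M20Stmt)
    {G : Type u} [Group G] [Finite G] [IsSimpleGroup G] (hG : ¬ IsMulCommutative G) (z : G) (hJ : IsOfJankoFourTypeAt z)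
    (Q : Subgroup G) (hQ : Nat.card ↥Q = 5) (hQz : Q ≤ Subgroup.centralizer ({z} : Set G)) :
    ¬ (25 ∣ Nat.card G) ∧
    (∃ J : Subgroup G, Cfsg.IsInternalDirectProduct Q J (Subgroup.centralizer (Q : Set G)) ∧
      ∃ (E : Subgroup ↥J) (_ : E.Normal), Cfsg.IsElementaryAbelian 2 E ∧ Nat.card ↥E = 8 ∧
        Nonempty (↥J ⧸ E ≃* Matrix.SpecialLinearGroup (Fin 3) (ZMod 2)) ∧ ∀ K : Subgroup ↥J, ¬ E.IsComplement' K) ∧
    (∃ R : Subgroup G, Q ≤ R ∧ R ≤ Subgroup.normalizer (Q : Set G) ∧ Nat.card ↥R = 20 ∧ R ⊓ Subgroup.centralizer (Q : Set G) = Q) ∧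
    Nat.card ↥(Subgroup.normalizer (Q : Set G)) = 2 ^ 8 * 3 * 5 * 7 := by
  have a := hb As hG z hJ
  have p := L.Js.pu hG z hJ
  have h69 := Cfsg.Agent.S5569.result hG z hJ
  have : Fact (Nat.Prime 5) := ⟨by norm_num⟩
  obtain ⟨⟨σ, σS⟩, o5⟩ := exists_prime_orderOf_dvd_card' (G := Q) 5 (by rw [hQ])
  rw [← Subgroup.orderOf_coe] at o5
  change orderOf σ = 5 at o5
  obtain rfl : zpowers σ = Q := Subgroup.eq_of_le_of_card_ge (zpowers_le.2 σS) (by rw [Nat.card_zpowers, o5, hQ])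
  have σz : σ ∈ C_[z] := hQz σS
  obtain ⟨T⟩ : Nonempty (Sylow 2 G) := inferInstance
  obtain ⟨V, ⟨-, hV, hc⟩, -⟩ := Cfsg.Agent.S5566.result hG ⟨z, hJ⟩ T
  obtain ⟨-, K, k1, -, -, k4⟩ := Cfsg.Agent.S5567.result hG ⟨z, hJ⟩ V hV hc
  obtain ⟨z', t, -, -, -, zz, -, c1771, -, -⟩ := Cfsg.Agent.S5568.result hG z hJ V hV hc
  have h64 := Cfsg.Agent.S5564.result hG ⟨z, hJ⟩
  obtain ⟨P, hP⟩ := hJ
  obtain ⟨-, -, c6, i22, nP⟩ := Cfsg.Agent.S5563.result hG z P hP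
  have cP : Nat.card P = 3 := hP.2.2.2.2.2.1
  have : Fact (Nat.Prime 3) := ⟨by norm_num⟩
  obtain ⟨⟨δ, δP⟩, o3⟩ := exists_prime_orderOf_dvd_card' (G := P) 3 (by rw [cP])
  rw [← Subgroup.orderOf_coe] at o3
  change orderOf δ = 3 at o3
  obtain rfl : zpowers δ = P := Subgroup.eq_of_le_of_card_ge (zpowers_le.2 δP) (by rw [Nat.card_zpowers, o3, cP])
  have l : C_[δ] ≤ centralizer (zpowers δ : Set G) := fun g i => by
    rintro _ ⟨k, rfl⟩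
    exact ((show Commute δ g from (mem_cent1.1 i).symm).zpow_left k).eq
  have e : centralizer ({z} : Set G) ⊓ centralizer (zpowers δ : Set G) = C_[δ] :=
    le_antisymm (fun g i => mem_cent1.2 (i.2 δ (mem_zpowers δ)).symm)
      (le_inf (fun g i => nP (centralizer_le_normalizer _ (l i))) l)
  rw [e] at c6 i22
  obtain ⟨f1, f2, f3⟩ := F σ z X W a o5 hP.1 σz (fun w i o => by
      by_cases n : IsConj z w
      · exact .inr n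
      obtain ⟨V, K, -, -, h1, h2, h3, h4, h5, h6⟩ := h69 w o n
      exact .inl (B z w σ V K m5 a p h1 h2 h3 h4 h5 h6 (mem_cent1.2 (mem_cent1.1 i).symm) o5))
    fun x i o => Ts δ x σ c6 i22 (h64 δ x o3 o) (mem_cent1.2 (mem_cent1.1 i).symm) o5
  exact ⟨f1, f2, Rs z z' σ V K m20 a.1 k1 k4 zz c1771 σz o5, f3⟩

end L.Jf
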