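import Cfsg.Agent.L.Jt0
import Cfsg.Agent.H26.JE
import Cfsg.Agent.H21.JU1
import Cfsg.Agent.H18.JU2
import Cfsg.Agent.H22.JU
import Cfsg.Agent.S5566

/-! Assembly of the 3-local data of a group of Janko-four type. -/

set_option autoImplicit false
open Cfsg BG Subgroup H01.XS Cfsg.Agent.H06.J H20.FtW

namespace L.Jt
universe u

open Cfsg.Agent.H23 in
theorem fin (h2 : K.H2Stmt) (l2 : K.L2Stmt.{u}) (b2 : K.B2Stmt.{u}) (U : K.UStmt.{u}) (X : K.XStmt.{u}) (Gs : K.GStmt.{u})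
    (F : K.FStmt.{u}) (Es : K.EStmt.{u}) (O : K.OStmt.{u}) (C : K.CStmt.{u}) (N89 : K.N89Stmt.{u}) (N : K.NStmt.{u})
    (fK : L.Fz.KStmt.{u}) (fN : L.Fz.NStmt.{u}) (fX : L.Fz.XStmt.{u})
    (m1 : M1Stmt) (Ps : PStmt.{u}) (Ls : LStmt.{u}) (Ts : TStmt.{u}) (Vs : VStmt.{u}) (Z1 : Z1Stmt.{u}) (Z2 : Z2Stmt.{u})
    (W1 : W1Stmt.{u}) (W2 : W2Stmt.{u}) (Zs : ZStmt.{u}) (R1 : R1Stmt.{u}) (R2 : R2Stmt.{u}) (Gt : GStmt.{u}) (R3 : R3Stmt.{u})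
    {G : Type u} [Group G] [Finite G] [sG : IsSimpleGroup G] (hG : ¬ IsMulCommutative G) (z : G) (P : Subgroup G)
    (hJ : IsOfJankoFourTypeWith z P) :
    ∃ δ θ, T3 z δ θ ∧ zpowers δ = P ∧ centralizer (P : Set G) = C_[δ] ∧ z ∈ ⁅C_[z] ⊓ C_[δ], C_[z] ⊓ C_[δ]⁆ := by
  have u := U (Cfsg.Agent.S5566.result hG ⟨z, P, hJ⟩)
  obtain ⟨Q, V', _, _, _, Γ, _, _, f, π, ν, T, d, M, β, q, s, dc, ou, ρ, ρs, ρk⟩ := b2 z P hJ
  obtain ⟨K₀, Y₀, h0⟩ := h2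
  have g := s.gm
  obtain ⟨K, Y, hk, dK⟩ := l2 ρ g.d3 g.dM g.Md dc ρs ρk h0
  obtain ⟨B, p⟩ := _root_.H21.JU1.u1 g hk.hx hk.KM dK
  have pi := _root_.H18.JU.u2 g hk.hx hk.KM p
  obtain ⟨A, Az, A2, cA, AY, mA⟩ := _root_.H26.JE.e s hk.hx hk.KM p
  obtain ⟨δ, δz, δd, δ3, δP, δC, δc, iv⟩ := Ps s P ρ hJ ρs ρk
  have x : Cfsg.Agent.H23.K.Cx s K Y B A δ := ⟨hk, dK, p, pi, _root_.H22.JU.u3 g hk.hx hk.KM dK p pi, Az, A2, cA, AY, mA, u, δz, δd, δ3, ou⟩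
  have c : Cfsg.Agent.H23.K.C2 s Y B A δ := X s K Y B A δ x
  have l := s.md.lx
  have fu : ∃ m ∈ N_(A), m * z * m⁻¹ ≠ z := F s K Y B A δ x c sG hG
  obtain ⟨O1, O2, pB, c1, c2, t1, t2⟩ := O s K Y B A δ x c
  obtain ⟨E, F', pA, cE, cF, zE, tE, tF, iE⟩ := C s K Y B A δ x c (Gs s K Y B A δ x)
  have nM : ∀ m ∈ N_(A), ∀ y ∈ A, m * y * m⁻¹ ∈ A := fun m i y j => (mem_normalizer_iff.1 i y).1 j
  have zB : z ∈ s.md.pull B := ⟨l.aes.mem, s.md.zz ▸ zero_mem _⟩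
  have BA : s.md.pull B ≤ A := c.e3 ▸ inf_le_left
  have QN : Q ≤ N_(A) := fun y o => (c.mN y (l.le o)).2 fun v i => by rwa [(s.ker y (l.le o)).2 o, g.one]
  have zc : ∀ y ∈ C_[z], y * z = z * y := fun y o => mem_cent1.1 o
  have ob : Cfsg.Agent.H23.K.Ob A N_(A) (s.md.pull B) z O1 O2 E F' := by
    refine ⟨A2, cA, le_normalizer, nM, fun m _ => c.cen m, l.z1, zB, BA, by rw [s.md.card_pull, p.cB], fun m i j y o => ?_,
      ⟨Q, QN, IsPGroup.of_card (n := 13) s.card, fun y _ k => l.cz k⟩, fun t i j k => ?_, c.cN, pB, c1, c2, t1, t2, pA, cE,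
      cF, zE, tE, tF, fun y i j => ?_, fu, fun k => ?_⟩
    · exact c.e3.le ⟨nM m i y (BA o), (mem_normalizer_iff.1 (l.norm (mem_cent1.2 (mul_inv_eq_iff_eq_mul.1 j))) y).1 o.1⟩
    · by_contra n
      refine (l.cz fun r o => (l.cm o i.1).resolve_right fun w => n ⟨r, QN o, ?_, ?_⟩).elim j k
      · rw [zc r (l.le o), mul_inv_cancel_right]
      · rw [w, mul_inv_cancel_right, zc t (l.le i.1)]
    · obtain ⟨r, rA, rδ, w⟩ := c.YA _ (AY y i)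
      refine ⟨r, iE r rA rδ fun o => j (c.e3.le ⟨i, (s.ker y (Az i)).1 (w ▸ (s.ker r (Az rA)).2 o.1)⟩),
        c.e3.le ⟨mul_mem rA i, (s.ker _ (Az (mul_mem rA i))).1 ?_⟩⟩
      rw [_root_.H26.JE.mul s r (Az rA) y (Az i), w, hk.hx.Y2 _ (AY y i)]
    · obtain ⟨m, i, j⟩ := fu
      exact j (Es s K Y B A δ x c k m i)
  obtain ⟨cf, eD, -⟩ := N ob (N89 A2 cA ob.AM nM ob.cen)
  have kb := fK cf
  have nb := fN cf kb
  have lc : Lc z Q A π M δ := Ls s K Y B A δ x c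
  obtain ⟨θ, th⟩ := Ts s K Y B A δ x lc ρ ρs ρk δc
  obtain ⟨v1, v2, v3⟩ := Vs cf nb (fX cf kb nb) lc.δN δz lc.δ3 lc.c32 (fun y i j => lc.qz y i.1 j)
    fun y i j k => eD y (iE y i j k)
  have vz : Vz A N_(A) _ z δ := ⟨lc.δN, δz, lc.δ3, lc.c32, lc.tr, v1, v2, v3⟩
  have r1 := R1 s K Y B A δ x m1 ρ ρs ρk
  have cz : C_[δ] ≤ C_[z] := Zs _ z (mem_cent1.2 (zc δ δz).symm) lc.z2 (W2 s K Y B A δ x c lc (W1 cf vz)) fun R a b e =>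
    Gt (A ⊓ C_[δ]) R _ (fun y o => A2 y o.1) lc.c32 b (inf_le_right.trans e) fun W i j =>
      R2 cf nb vz (fun y o k r a => r1 y o k r a.1) W i j _ (inf_le_inf_right _ a)
        (b.of_dvd_nat (card_dvd_of_le inf_le_left))
  obtain ⟨y, y1, y2, r, r1, r2, r3, r4⟩ := R3 cf nb vz
  refine ⟨δ, θ, ⟨th, lc.c81, (Z2 th).2.2.2.2 cz, iv, y, y1, y2, fun h i j => ?_⟩, δP, δC, Z1 cf vz th⟩
  have o3 : orderOf (h * y * h⁻¹) = 3 := by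
    obtain ⟨k, rfl⟩ := isConj_iff.1 y2
    rw [← lc.δ3]
    exact (SemiconjBy.orderOf_eq (h * k) (show h * k * δ = h * (k * δ * k⁻¹) * h⁻¹ * (h * k) by group)).symm
  have e : δ ∈ zpowers (h * y * h⁻¹) := by
    have := Subgroup.eq_of_le_of_card_ge (zpowers_le.2 j) (by rw [Nat.card_zpowers, Nat.card_zpowers, o3, lc.δ3])
    exact this ▸ mem_zpowers δ
  have w : h * r * h⁻¹ ∈ C_[δ] := by
    obtain ⟨k, e⟩ := mem_zpowers_iff.1 e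
    have : Commute (h * r * h⁻¹) (h * y * h⁻¹) := by
      show h * r * h⁻¹ * (h * y * h⁻¹) = h * y * h⁻¹ * (h * r * h⁻¹)
      rw [show h * r * h⁻¹ * (h * y * h⁻¹) = h * (r * y) * h⁻¹ by group, mem_cent1.1 r4]; group
    exact mem_cent1.2 (e ▸ (this.zpow_right k).eq)
  rcases lc.qz _ ((mem_normalizer_iff.1 (l.norm i) r).1 r1.1) w with a | a
  · exact r2 (by simpa using a)
  · refine r3 ?_
    rw [show r = h⁻¹ * (h * r * h⁻¹) * h by group, a, mul_assoc, ← zc h i, inv_mul_cancel_left]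

theorem s63 (Z2 : Z2Stmt.{u}) {G : Type u} [Group G] [Finite G] {z : G} {P : Subgroup G}
    (h : ∃ δ θ, T3 z δ θ ∧ zpowers δ = P ∧ centralizer (P : Set G) = C_[δ] ∧ z ∈ ⁅C_[z] ⊓ C_[δ], C_[z] ⊓ C_[δ]⁆) :
    ⁅(Subgroup.centralizer ({z} : Set G) ⊓ Subgroup.centralizer (P : Set G)), (Subgroup.centralizer ({z} : Set G) ⊓ Subgroup.centralizer (P : Set G))⁆ = (Subgroup.centralizer ({z} : Set G) ⊓ Subgroup.centralizer (P : Set G)) ∧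
    IsCyclic ↥(Subgroup.center ↥(Subgroup.centralizer ({z} : Set G) ⊓ Subgroup.centralizer (P : Set G))) ∧ Nat.card ↥(Subgroup.center ↥(Subgroup.centralizer ({z} : Set G) ⊓ Subgroup.centralizer (P : Set G))) = 6 ∧
    Cfsg.Spor.IsoM22 (↥(Subgroup.centralizer ({z} : Set G) ⊓ Subgroup.centralizer (P : Set G)) ⧸ Subgroup.center ↥(Subgroup.centralizer ({z} : Set G) ⊓ Subgroup.centralizer (P : Set G))) ∧ Subgroup.normalizer (P : Set G) ≤ Subgroup.centralizer ({z} : Set G) := by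
  obtain ⟨δ, θ, t, rfl, e, c⟩ := h
  rw [e]
  obtain ⟨a1, a2, a3, a4, -⟩ := Z2 t.toTh
  exact ⟨a1 c, a2, a3, a4, fun g o => t.nH g ((mem_normalizer_iff.1 o δ).1 (mem_zpowers δ))⟩

end L.Jt
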