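import Cfsg.Agent.H14.Co1
import Cfsg.Agent.H14.MSimple

/-!
# Leech lattice modulo two: invariant quadratic forms, the monomial group (`L.MT`)
-/

namespace L.MT

open Cfsg H14 Finset MulAction
open scoped symmDiff Pointwise

/-- congruence modulo twice the lattice -/
def Cg (v w : leechLattice) : Prop := ∃ u, v = w + (u + u)

theorem Cg.refl (v : leechLattice) : Cg v v := ⟨0, by simp⟩

theorem Cg.symm {v w : leechLattice} : Cg v w → Cg w v
  | ⟨u, h⟩ => ⟨-u, by rw [h]; abel⟩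

theorem Cg.trans {v w x : leechLattice} : Cg v w → Cg w x → Cg v x
  | ⟨u, h⟩, ⟨u', h'⟩ => ⟨u + u', by rw [h, h']; abel⟩

theorem Cg.smul {v w : leechLattice} (g : Co0) : Cg v w → Cg (g • v) (g • w)
  | ⟨u, h⟩ => ⟨g • u, by rw [h, smul_add, smul_add]⟩

theorem cg_neg (v : leechLattice) : Cg (-v) v := ⟨-v, by abel⟩

theorem Cg.cases {v w : leechLattice} (h : Cg v w) (hv : sqNorm (v : V) ≤ 64) (hw : sqNorm (w : V) ≤ 64) :
    v = w ∨ v = -w ∨ sqNorm (v : V) = 64 ∧ sqNorm (w : V) = 64 := by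
  obtain ⟨u, e⟩ := h
  rcases leech_short_cong v.2 w.2 u.2 hv hw (by rw [e, two_smul]; simp) with h | h | h
  · exact .inl (Subtype.ext h)
  · exact .inr (.inl (Subtype.ext h))
  · exact .inr (.inr ⟨h.1, h.2.1⟩)

theorem Cg.norm_eq {v w : leechLattice} (h : Cg v w) (hv : sqNorm (v : V) ≤ 64) (hw : sqNorm (w : V) ≤ 64) :
    sqNorm (v : V) = sqNorm (w : V) := by
  rcases h.cases hv hw with rfl | rfl | h
  · rfl
  · exact sqNorm_neg _
  · rw [h.1, h.2]

theorem exists_type (v : leechLattice) : ∃ w, Cg v w ∧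
    (w = 0 ∨ sqNorm (w : V) = 32 ∨ sqNorm (w : V) = 48 ∨ sqNorm (w : V) = 64) := by
  obtain ⟨y, hy, h1, u, hu, e⟩ := exists_short v.2
  refine ⟨⟨y, hy⟩, ⟨⟨u, hu⟩, Subtype.ext (by rw [two_smul, sub_eq_iff_eq_add'] at e; exact e)⟩, ?_⟩
  by_cases h0 : y = 0
  · exact .inl (Subtype.ext h0)
  · have := leech_min hy h0
    have := leech_norm hy
    simp only
    omega

theorem mem_Nmon_iff {g : Co0} : g ∈ Nmon ↔ Cg (g • e8 none) (e8 none) := by
  rw [Nmon, mem_stabilizer_iff, smul_crossL]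
  refine ⟨fun h => ?_, fun ⟨u, h⟩ => crossL_eq ⟨by rw [co_norm, norm_e8], -u, by rw [h, two_smul]; abel⟩⟩
  obtain ⟨-, u, e⟩ := h.ge (self_mem_crossL (norm_e8 none))
  exact ⟨u, by rw [← two_smul ℕ, ← e]; abel⟩

theorem quad (Q : leechLattice → ZMod 2) (hc : ∀ v w, Q (v + (w + w)) = Q v)
    (hq : ∀ u v w, Q (u + v + w) + Q u + Q v + Q w = Q (u + v) + Q (u + w) + Q (v + w))
    (hi : ∀ (g : Co0) v, Q (g • v) = Q v) :
    Q 0 = 0 ∧ (∀ v : leechLattice, sqNorm (v : V) = 32 → Q v = 0) ∧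
      ∀ v : leechLattice, sqNorm (v : V) = 64 → Q v = 0 := by
  have h0 : Q 0 = 0 := by
    have := hq 0 0 0
    simp only [add_zero] at this
    linear_combination this
  have two : (2 : ZMod 2) = 0 := rfl
  have h2 : ∀ v : leechLattice, sqNorm (v : V) = 32 → Q v = Q Spor.leechU := fun v hv => by
    obtain ⟨g, e⟩ := min_to_U v hv
    rw [← e, hi]
  have h4 : ∀ v : leechLattice, sqNorm (v : V) = 64 → Q v = Q (e8 none) := fun v hv => by
    obtain ⟨g, e⟩ := t4_to_e8 v hv
    rw [← e, hi]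
  have nm : ∀ {i j k l : GolayPt} (s t : ℤˣ), i ≠ j → k ≠ l → i ≠ k → i ≠ l → j ≠ k → j ≠ l →
      sqNorm ((v44 i j s + v44 k l t : leechLattice) : V) = 64 := fun s t h1 h2 h3 h4 h5 h6 => by
    rw [AddSubgroup.coe_add, sqNorm_add, norm_v44 h1, norm_v44 h2, dot_v44, v44_apply, v44_apply]
    simp [h3.symm, h4.symm, h5.symm, h6.symm]
  have ad : ∀ i j k : GolayPt, v44 i j (-1) + v44 j k (-1) = v44 i k (-1) := fun i j k => by
    ext p
    simp only [AddSubgroup.coe_add, Pi.add_apply, v44_apply, Units.val_neg, Units.val_one]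
    split_ifs <;> rfl
  have n4 : Q (e8 none) = 0 := by
    have := hq (v44 none (some 0) (-1)) (v44 (some 0) (some 1) (-1)) (v44 (some 1) (some 2) (-1))
    rw [ad, ad, ad, h4 _ (nm _ _ (by decide) (by decide) (by decide) (by decide) (by decide) (by decide))] at this
    iterate 6 rw [h2 (v44 _ _ _) (norm_v44 (by decide) _)] at this
    linear_combination -this + Q Spor.leechU * two
  refine ⟨h0, fun v hv => (h2 v hv).trans ?_, fun v hv => (h4 v hv).trans n4⟩
  obtain ⟨c, hc', e⟩ := exists_Code_inter_small (d := {none, some 0, some 1}) (s := {none}) (by decide) (by decide)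
  have m : ∀ i ∈ ({none, some 0, some 1} : Finset GolayPt), i ∈ c ↔ i = none := fun i hi => by
    rw [← mem_singleton, ← e, mem_inter, and_iff_left hi]
  let B : leechLattice →+ ZMod 2 :=
    AddMonoidHom.mk' (fun w => Q (v44 none (some 0) 1 + w) + Q (v44 none (some 0) 1) + Q w) fun w w' => by
      have := hq (v44 none (some 0) 1) w w'
      rw [← add_assoc]
      linear_combination this + (Q (w + w') - Q w - Q w' - Q (v44 none (some 0) 1)) * two
  have hB : ∀ w, B w = Q (v44 none (some 0) 1 + w) + Q (v44 none (some 0) 1) + Q w := fun _ => rfl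
  obtain ⟨k, hk⟩ := Int.dvd_of_emod_eq_zero (Code_four hc')
  have hs : ∑ i ∈ c, v44 i (some 1) 1 = 2 • (⟨_, two_iZ_mem hc'⟩ + ⟨_, single8_mem (some 1) k⟩ : leechLattice) := by
    ext p
    simp only [AddSubmonoidClass.coe_finset_sum, Finset.sum_apply, v44_apply, ← mul_sum, sum_add_distrib, sum_ite_eq,
      sum_const, nsmul_eq_mul, hk, two_smul, AddSubgroup.coe_add, Pi.add_apply, iZ, Pi.single_apply, Units.val_one]
    split_ifs <;> ring
  have h5 := congrArg B hs
  rw [map_nsmul, two_nsmul, CharTwo.add_self_eq_zero, map_sum,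
    sum_eq_single_of_mem none ((m _ (by decide)).2 rfl) fun i hi h => by
      have a1 : i ≠ some 0 := fun e => h ((m _ (by rw [e]; decide)).1 hi)
      have a2 : i ≠ some 1 := fun e => h ((m _ (by rw [e]; decide)).1 hi)
      rw [hB, h4 _ (nm _ _ (by decide) a2 h.symm (by decide) a1.symm (by decide)), n4,
        h2 _ (norm_v44 (by decide) _), h2 _ (norm_v44 a2 _), zero_add, CharTwo.add_self_eq_zero], hB,
    show v44 none (some 0) 1 + v44 none (some 1) 1 = v44 (some 0) (some 1) (-1) +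
      (v44 none (some 1) 1 + v44 none (some 1) 1) by
      ext p
      simp only [AddSubgroup.coe_add, Pi.add_apply, v44_apply, Units.val_neg, Units.val_one]
      split_ifs <;> rfl, hc] at h5
  iterate 3 rw [h2 (v44 _ _ _) (norm_v44 (by decide) _)] at h5
  linear_combination h5 - Q Spor.leechU * two

theorem quad_eq (Q : leechLattice → ZMod 2) (hc : ∀ v w, Q (v + (w + w)) = Q v)
    (hq : ∀ u v w, Q (u + v + w) + Q u + Q v + Q w = Q (u + v) + Q (u + w) + Q (v + w))
    (hi : ∀ (g : Co0) v, Q (g • v) = Q v) (hne : ∃ v, Q v ≠ 0) (v : leechLattice) :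
    Q v = ((sqNorm (v : V) / 16 : ℤ) : ZMod 2) := by
  obtain ⟨h0, h2, h4⟩ := quad Q hc hq hi
  have h3 : ∀ v : leechLattice, sqNorm (v : V) = 48 → Q v = 1 := fun v hv => by
    obtain ⟨x, hx⟩ := hne
    obtain ⟨y, ⟨u, rfl⟩, rfl | h | h | h⟩ := exists_type x <;> rw [hc] at hx
    · exact absurd h0 hx
    · exact absurd (h2 _ h) hx
    · obtain ⟨g, rfl⟩ := t3_trans hv h
      rw [hi] at hx
      revert hx; generalize Q v = a; decide +revert
    · exact absurd (h4 _ h) hx
  obtain ⟨y, ⟨u, rfl⟩, h⟩ := exists_type v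
  obtain ⟨a, ha⟩ := leech_dot y.2 u.2
  obtain ⟨b, hb⟩ := leech_norm u.2
  have : ∀ n : ℤ, sqNorm (y : V) = 16 * n → Q y = n →
      Q (y + (u + u)) = ((sqNorm ((y + (u + u) : leechLattice) : V) / 16 : ℤ) : ZMod 2) := fun n h1 h2 => by
    simp only [AddSubgroup.coe_add, sqNorm_add, dotInt_add, dotInt_self, ha, hb, h1]
    rw [hc, h2, show (16 * n + 2 * (8 * a + 8 * a) + (16 * b + 2 * (16 * b) + 16 * b)) / 16 = n + 2 * (a + 2 * b) by omega]
    push_cast
    rw [show (2 : ZMod 2) = 0 from rfl, zero_mul, add_zero]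
  rcases h with rfl | h | h | h
  · exact this 0 (by simp [sqNorm]) (by simpa using h0)
  · exact this 2 h (h2 _ h)
  · exact this 3 h (h3 _ h)
  · exact this 4 h (h4 _ h)

theorem mono_mul (σ τ : Equiv.Perm GolayPt) (hσ : σ ∈ M24) (hτ : τ ∈ M24) (c d : Finset GolayPt) (hc : c ∈ Code)
    (hd : d ∈ Code) : ∃ x hx, mono σ hσ c hc * mono τ hτ d hd = mono (σ * τ) (mul_mem hσ hτ) x hx := by
  obtain ⟨ρ, hρ, x, hx, e⟩ := exists_mono_of_mem (mul_mem (mono_mem_Nmon σ hσ c hc) (mono_mem_Nmon τ hτ d hd))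
  obtain rfl : ρ = σ * τ := Equiv.ext fun i => by
    have := congrArg (· • e8 i) e
    simp only [mul_smul, mono_e8] at this
    split_ifs at this <;> simp only [smul_neg, mono_e8] at this <;> split_ifs at this <;>
      (try simp only [neg_neg, neg_inj] at this) <;>
      first | exact (e8_inj this).symm | exact absurd this (e8_ne_neg _ _) | exact absurd this.symm (e8_ne_neg _ _)
  exact ⟨x, hx, e⟩

/-- the permutation part of a monomial automorphism -/
noncomputable def rho : Nmon →* M24 :=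
  MonoidHom.mk' (fun g => ⟨_, (exists_mono_of_mem g.2).choose_spec.choose⟩) fun g h => Subtype.ext <| by
    obtain ⟨_, a1, e1⟩ := (exists_mono_of_mem g.2).choose_spec.choose_spec
    obtain ⟨_, a2, e2⟩ := (exists_mono_of_mem h.2).choose_spec.choose_spec
    obtain ⟨_, _, e3⟩ := (exists_mono_of_mem (g * h).2).choose_spec.choose_spec
    obtain ⟨_, _, e4⟩ := mono_mul _ _ (exists_mono_of_mem g.2).choose_spec.choose
      (exists_mono_of_mem h.2).choose_spec.choose _ _ a1 a2
    exact (mono_inj (e3.symm.trans ((congrArg₂ (· * ·) e1 e2).trans e4))).1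

theorem rho_mono (σ : Equiv.Perm GolayPt) (hσ : σ ∈ M24) (c : Finset GolayPt) (hc : c ∈ Code) :
    rho ⟨_, mono_mem_Nmon σ hσ c hc⟩ = ⟨σ, hσ⟩ := by
  obtain ⟨_, _, e⟩ := (exists_mono_of_mem (mono_mem_Nmon σ hσ c hc)).choose_spec.choose_spec
  exact Subtype.ext (mono_inj e).1.symm

/-- permutation matrices -/
noncomputable def prmH : M24 →* Nmon :=
  MonoidHom.mk' (fun σ => ⟨prm σ σ.2, mono_mem_Nmon _ _ _ _⟩) fun _ _ =>
    Subtype.ext (co_ext fun i => by simp [mul_smul, prm_e8])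

theorem rho_prmH (σ : M24) : rho (prmH σ) = σ := rho_mono _ _ _ _

theorem rho_surj : Function.Surjective rho := fun σ => ⟨_, rho_prmH σ⟩

theorem card_ker_rho : Nat.card rho.ker = 2 ^ 12 := by
  have := rho.ker.card_mul_index
  rw [Subgroup.index_ker, MonoidHom.range_eq_top.2 rho_surj, Subgroup.card_top, card_M24, card_Nmon] at this
  exact Nat.eq_of_mul_eq_mul_right (by norm_num) this

theorem ker_rho {g : Nmon} (h : rho g = 1) : ∃ c hc, g = sgn c hc := by
  obtain ⟨g, hg⟩ := g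
  obtain ⟨σ, hσ, c, hc, rfl⟩ := exists_mono_of_mem hg
  obtain rfl : σ = 1 := congrArg Subtype.val ((rho_mono σ hσ c hc).symm.trans h)
  exact ⟨c, hc, rfl⟩

theorem sgn_comm (c d : Finset GolayPt) (hc : c ∈ Code) (hd : d ∈ Code) : sgn c hc * sgn d hd = sgn d hd * sgn c hc :=
  co_ext' fun v => by
    ext i
    simp only [mul_smul, sgn_apply]
    split_ifs <;> rfl

theorem sgn_sq (c : Finset GolayPt) (hc : c ∈ Code) : sgn c hc * sgn c hc = 1 :=
  co_ext' fun v => by
    ext i
    simp only [mul_smul, sgn_apply, one_smul]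
    split_ifs <;> simp

theorem center_le {g : Co0} (hg : g ∈ Subgroup.center Co0) : ∃ h : g ∈ Nmon, rho ⟨g, h⟩ = 1 := by
  have h : g ∈ Nmon := by
    rcases mem_center_Co0.1 hg with rfl | rfl
    · exact one_mem _
    · exact mem_Nmon_iff.2 (negCo_smul (e8 none) ▸ cg_neg _)
  refine ⟨h, ?_⟩
  have := simple_M24
  have h1 : rho ⟨g, h⟩ ∈ Subgroup.center M24 := Subgroup.mem_center_iff.2 fun σ => by
    obtain ⟨k, rfl⟩ := rho_surj σ
    rw [← map_mul, ← map_mul]
    exact congrArg rho (Subtype.ext (Subgroup.mem_center_iff.1 hg k))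
  have h2 : rho ⟨g, h⟩ ^ 2 = 1 := by
    rw [← map_pow, show (⟨g, h⟩ : Nmon) ^ 2 = 1 from Subtype.ext (by
      rcases mem_center_Co0.1 hg with rfl | rfl
      · exact one_pow 2
      · exact (pow_two _).trans negCo_mul_self), map_one]
  have h3 : (Subgroup.zpowers (rho ⟨g, h⟩)).Normal := ⟨fun n hn k => by
    rwa [Subgroup.mem_center_iff.1 (Subgroup.zpowers_le.2 h1 hn) k, mul_inv_cancel_right]⟩
  rcases h3.eq_bot_or_eq_top with e | e
  · exact Subgroup.zpowers_eq_bot.1 e
  · have := orderOf_dvd_of_pow_eq_one h2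
    rw [← Nat.card_zpowers, e, Subgroup.card_top, card_M24] at this
    omega

end L.MT
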