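import Mathlib
import Cfsg.Agent.H10.C2B

/-! Overgroups of the monomial group in `SL(4, q)`: elements fixing a coordinate point (the arguments of `H10.C2A` in low dimension). -/

namespace L.Sl4
open Matrix Cfsg Cfsg.Geo H10.As Equiv H10.C2

variable {ι : Type} [Fintype ι] [DecidableEq ι] {F : Type*} [Field F] {M : Subgroup (GL ι F)}
  {x y k : Matrix ι ι F} {a : F} {w ψ w' ψ' : ι → F}

theorem ab3 (h : HG M) (a0 : a ≠ 0) (a2 : a * a ≠ 1) (I : ι → Prop) (x0 : x ≠ 0)
    (hx : ∀ i j, x i j ≠ 0 → I i ∧ ¬ I j) (h1 : In M (1 + x)) : RT M := by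
  classical
  induction e : (Finset.univ.filter fun p : ι × ι => x p.1 p.2 ≠ 0).card using Nat.strong_induction_on generalizing x with
  | _ n ih =>
  obtain ⟨i, j, b⟩ : ∃ i j, x i j ≠ 0 := by by_contra! H; exact x0 (Matrix.ext H)
  by_cases H : ∀ k l, x k l ≠ 0 → k = i ∧ l = j
  · refine ⟨i, j, fun e => (hx i j b).2 (e ▸ (hx i j b).1), _, b, by
      convert h1; ext k l; by_cases c : x k l = 0
      · rw [c, single_apply]; split_ifs with d; exacts [(b (by rwa [d.1, d.2])).elim, rfl]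
      · obtain ⟨rfl, rfl⟩ := H k l c; simp⟩
  push Not at H
  obtain ⟨k, l, c, d⟩ := H
  have kl : k ≠ l := fun e => (hx k l c).2 (e ▸ (hx k l c).1)
  have a1 : a ≠ 1 := by rintro rfl; simp at a2
  obtain ⟨t, t0, e2, e3⟩ : ∃ t : ι → F, (∀ p, t p ≠ 0) ∧ t i = t j ∧ t k ≠ t l := by
    obtain ⟨r, r1, r2, r3⟩ : ∃ r, (r = k ∨ r = l) ∧ r ≠ i ∧ r ≠ j := by
      by_cases f : k = i
      · exact ⟨l, .inr rfl, f ▸ kl.symm, d f⟩
      · exact ⟨k, .inl rfl, f, fun e => (hx i j b).2 (e ▸ (hx k l c).1)⟩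
    refine ⟨fun p => if p = r then a else 1, fun p => by dsimp only; split_ifs <;> simp [a0], by simp [r2.symm, r3.symm], ?_⟩
    rcases r1 with rfl | rfl <;> simp [kl, kl.symm, a1, Ne.symm a1]
  refine ih _ (e ▸ Finset.card_lt_card ⟨fun p => by simpa using fun _ h => h,
    fun H => by simpa [e2, t0] using @H (i, j) (by simpa)⟩)
    (x := of fun p q => (t p / t q - 1) * x p q) (fun H => by simpa [sub_eq_zero, c, div_eq_iff, t0, e3] using congr($H k l))
    (fun p q H => hx p q (right_ne_zero_of_mul H)) (h1.of_mul ((h 1 t t0).of_mul ?_)) rfl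
  convert (h 1 t t0).mul h1 using 1
  ext p q
  have : ((of fun p q => (t p / t q - 1) * x p q) * x) p q = 0 := Finset.sum_eq_zero fun s _ => by
    by_contra H; exact (hx p s (right_ne_zero_of_mul (left_ne_zero_of_mul H))).2 (hx s q (right_ne_zero_of_mul H)).1
  have := t0 q
  rw [mul_mo, ← Perm.one_apply p, mo_mul]
  simp only [mul_add, add_mul, one_mul, mul_one, Matrix.add_apply, Perm.one_apply, of_apply, one_apply, *]
  split_ifs with f <;> [subst f; skip] <;> linear_combination x p _ * div_mul_cancel₀ (t p) this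

section
variable (h : HG M)
include h
variable (hn : 3 ≤ Fintype.card ι) (a0 : a ≠ 0) (a2 : a * a ≠ 1) (hr : ¬ RT M)
include hn a0 a2 hr

theorem uniq3 (h1 : Pr M w ψ) (h2 : Pr M w ψ') : ψ = ψ' := by
  obtain ⟨g, b, j, c, e⟩ := h1
  replace h2 := h2.map ⟨g⁻¹, M.inv_mem b, rfl⟩ (w' := Pi.single j 1) (ψ' := ψ' ᵥ* g.1) (by rw [← c, mulVec_mulVec, Units.inv_mul, one_mulVec]) (by simp)
  refine vecMul_injective_of_isUnit g.isUnit (e.trans ?_)
  change _ = ψ' ᵥ* g.1
  generalize ψ' ᵥ* g.1 = ρ at h2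
  have h3 : ρ j = 1 := by simpa using h2.one
  have a1 : a - 1 ≠ 0 := by rw [sub_ne_zero]; rintro rfl; simp at a2
  by_contra H
  refine hr (ab3 h a0 a2 (· = j) (x := ((a - 1) / a) • vecMulVec (Pi.single j 1) (ρ - Pi.single j 1)) (fun e => H ?_)
    (fun p q e => ⟨by_contra fun f => by simp [vecMulVec_apply, f] at e, fun f => by simp [vecMulVec_apply, f, h3] at e⟩)
    ((h 1 (Function.update 1 j a) fun i => by by_cases f : i = j <;> simp [*]).of_mul' ?_))
  · ext q; exact (by simpa [vecMulVec_apply, a0, a1, sub_eq_zero] using congr($e j q) : ρ q = _).symm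
  convert h.hom h2 a0 using 1
  ext p q
  rw [← Perm.one_apply p, mo_mul]
  by_cases f : p = j <;> simp [vecMulVec_apply, f, one_apply, Pi.single_apply, eq_comm]
  split_ifs <;> field_simp <;> ring

theorem zero3 (h1 : Pr M w ψ) {k : ι} (e : w k = 0) : ψ k = 0 := by
  have := congrFun (uniq3 h hn a0 a2 hr h1 (h1.map (h 1 (Function.update 1 k a) fun i => by by_cases f : i = k <;> simp [*])
    (ψ' := Function.update ψ k (ψ k / a)) (funext fun p => by
      rw [← Perm.one_apply p, mo_mulVec]; by_cases f : p = k <;> simp [*]) (funext fun p => by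
      rw [vecMul_mo]; by_cases f : p = k <;> simp [*]))) k
  rw [Function.update_self, eq_div_iff a0, mul_right_eq_self₀] at this
  exact this.resolve_left (by rintro rfl; simp at a2)

theorem eq3 (h1 : Pr M w ψ) {i j : ι} (e : w i ≠ 0) (e' : w j ≠ 0) : ψ i * w i = ψ j * w j := by
  classical
  have z' : ∀ p, w (swap i j p) = 0 ↔ w p = 0 := fun p => by rw [swap_apply_def]; split_ifs <;> simp [*]
  have := congrFun (uniq3 h hn a0 a2 hr h1 (h1.map (h (swap i j) (fun p => if w p = 0 then 1 else w (swap i j p) / w p)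
    fun p => by split_ifs <;> simp [*]) (ψ' := fun p => if w p = 0 then 0 else ψ (swap i j p) * w (swap i j p) / w p)
    (funext fun p => ?_) (funext fun p => ?_))) i
  · simpa [e, eq_div_iff] using this
  · obtain ⟨p, rfl⟩ := (swap i j).surjective p
    rw [mo_mulVec]; split_ifs with f <;> simp [f, z', (z' p).2]
  · rw [vecMul_mo]; by_cases f : w p = 0 <;> simp [f, z', zero3 h hn a0 a2 hr h1]; field_simp [mt (z' p).1 f]

theorem half3 (a3 : a * a * a ≠ 1) (h1 : Pr M w ψ) {i j : ι} (b : i ≠ j) (e : w i ≠ 0) (e' : w j ≠ 0) :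
    a * a = -1 ∧ 2 * (ψ i * w i) = 1 := by
  have H : ∀ c : F, c ≠ 0 → c * c ≠ 1 → c + ψ i * w i * (c - 1) ^ 2 = 0 := fun c c0 c2 => by
    have h2 := h.step h1 (pr_single i) c0
    have c1 : c - 1 ≠ 0 := by rw [sub_ne_zero]; rintro rfl; simp at c2
    have h3 := eq3 h hn a0 a2 hr h1 e e'
    by_cases f : 1 + (c - 1) * ψ i * w i = 0
    · have := zero3 h hn a0 a2 hr h2 (k := i) (by simpa using f)
      simp at this; field_simp at this
      exact (c2 (by linear_combination (c - 1) * (f + this))).elim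
    have p0 : ψ i ≠ 0 := fun p0 => by
      have := h1.one
      rw [dotProduct, Finset.sum_eq_zero fun p _ => by
        by_cases q : w p = 0; exacts [by simp [q], by simp [← eq3 h hn a0 a2 hr h1 e q, p0]]] at this
      simp at this
    have := eq3 h hn a0 a2 hr h2 (i := i) (j := j) (by simpa using f) (by simp [b.symm, c1, p0, e'])
    simp [b.symm] at this; field_simp at this
    linear_combination this + (c - 1) ^ 2 * ψ i * w i * h3
  have h2 := H a a0 a2
  have h3 : a * a = -1 := by_contra fun f => by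
    have h3 := H (a * a) (mul_ne_zero a0 a0) fun e => (mul_self_eq_one_iff.1 e).elim a2 f
    have a1 : a - 1 ≠ 0 := by rw [sub_ne_zero]; rintro rfl; simp at a2
    exact a3 (by
      have := mul_left_cancel₀ a0 (show a * (a * a + a + 1) = a * 0 by linear_combination (a + 1) ^ 2 * h2 - h3)
      linear_combination (a - 1) * this)
  exact ⟨h3, mul_left_cancel₀ a0 (by linear_combination -h2 + ψ i * w i * h3)⟩

theorem mon3 (a3 : a * a * a ≠ 1) {g : GL ι F} (hg : g ∈ M) : Mon g.1 := fun j => by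
  have h1 : Pr M _ (Pi.single j 1 ᵥ* (g⁻¹).1) := ⟨g, hg, j, rfl, by rw [vecMul_vecMul, Units.inv_mul, vecMul_one]⟩
  generalize g.1 *ᵥ Pi.single j 1 = w at h1
  generalize Pi.single j 1 ᵥ* (g⁻¹).1 = ψ at h1
  by_contra! H
  simp only [Pt1, not_exists, not_forall] at H
  obtain ⟨i, -, e⟩ := H j
  obtain ⟨j, b, e'⟩ := H i
  obtain ⟨c, d⟩ := half3 h hn a0 a2 hr a3 h1 b.symm e e'
  have d' := (half3 h hn a0 a2 hr a3 h1 b e' e).2
  have t : (2 : F) ≠ 0 := fun t => by simp [t] at d
  have ai : a⁻¹ = -a := inv_eq_of_mul_eq_one_right (by linear_combination -c)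
  have a1 : a - 1 ≠ 0 := by rw [sub_ne_zero]; rintro rfl; simp at a2
  have a1' : 1 + a ≠ 0 := fun f => a2 (by linear_combination (a - 1) * f)
  have o := h1.one
  have sm : ∀ (u v : ι → F) (p : ι), (∀ q, q ≠ p → u q * v q = ψ q * w q) → u ⬝ᵥ v = 1 - ψ p * w p + u p * v p := fun u v p f => by
    rw [← o, dotProduct, dotProduct, ← Finset.add_sum_erase _ _ (Finset.mem_univ p),
      ← Finset.add_sum_erase _ _ (Finset.mem_univ p), Finset.sum_congr rfl fun q hq => f q (Finset.ne_of_mem_erase hq)]; ring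
  by_cases f : ∃ k, w k = 0
  · obtain ⟨k, f⟩ := f
    have f' := zero3 h hn a0 a2 hr h1 f
    have kj : k ≠ j := by rintro rfl; exact e' f
    have h2 := h.step h1 (h1.map (h (swap j k) 1 (by simp)) (w' := w ∘ swap j k) (ψ' := ψ ∘ swap j k) (funext fun p => by
      obtain ⟨p, rfl⟩ := (swap j k).surjective p; simp [mo_mulVec]) (funext fun p => by simp [vecMul_mo])) a0
    rw [sm ψ _ j fun q hq => by by_cases r : q = k <;> simp [swap_apply_of_ne_of_ne, *],
      sm _ w j fun q hq => by by_cases r : q = k <;> simp [swap_apply_of_ne_of_ne, *]] at h2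
    have j1 : 1 - ψ j * w j ≠ 0 := fun r => one_ne_zero (α := F) (by linear_combination d' + 2 * r)
    have := eq3 h hn a0 a2 hr h2 (i := k) (j := j) (by simp [f, e']) (by simp [f, e', a1, j1])
    simp [f, f', ai] at this
    refine t ?_
    linear_combination (8 * (ψ j * w j) ^ 2 - 12 * ψ j * w j - 2) * d' + 8 * this - 8 * ψ j * w j * (1 - ψ j * w j) ^ 2 * c
  push Not at f
  obtain ⟨l, hl⟩ := exists_nmem {i, j} Finset.card_le_two (by omega)
  simp only [Finset.mem_insert, Finset.mem_singleton, not_or] at hl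
  have h2 := h.step h1 (h1.map (h 1 (Function.update 1 i (-a)) fun p => by by_cases r : p = i <;> simp [*])
    (w' := Function.update w i (-a * w i)) (ψ' := Function.update ψ i (a * ψ i)) (funext fun p => by
      rw [← Perm.one_apply p, mo_mulVec]; by_cases r : p = i <;> simp [*]) (funext fun p => by
      rw [vecMul_mo]; by_cases r : p = i <;> simp [r]; linear_combination -ψ i * c)) a0
  rw [sm ψ _ i fun q hq => by simp [hq], sm _ w i fun q hq => by simp [hq]] at h2
  simp only [Function.update_self] at h2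
  rw [show (a - 1) * (1 - ψ i * w i + ψ i * (-a * w i)) = a from mul_left_cancel₀ t
    (by linear_combination (1 - a * a) * d + (-1) * c), show (a⁻¹ - 1) * (1 - ψ i * w i + a * ψ i * w i) = -a from
    mul_left_cancel₀ t (by rw [ai]; linear_combination (1 - a * a) * d + (-1) * c)] at h2
  have := (half3 h hn a0 a2 hr a3 h2 (Ne.symm hl.2) (by simp [b, ← one_add_mul, a1', f]) (by simp [hl.1, ← one_add_mul, a1', f])).2
  simp [b] at this
  exact one_ne_zero (α := F) (by linear_combination this - 2 * d' + 2 * ψ j * w j * c)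

end

section
variable (h : HS M) (hn : 4 ≤ Fintype.card ι) (a0 : a ≠ 0) (a2 : a * a ≠ 1) (a3 : a * a * a ≠ 1) (hr : ¬ RT M)
  (hM : M ≤ specialLinear ι F)
include h hn a0 a2 hr

include a3 hM in
theorem fix4 {g : GL ι F} (hg : g ∈ M) {o : ι} (h1 : ∀ k, k ≠ o → g.1 k o = 0) : Mon g.1 := by
  let P : Subgroup (GL ι F) :=
    { carrier := {g | ∃ c : F, g.1 *ᵥ Pi.single o 1 = c • Pi.single o 1}
      one_mem' := ⟨1, by rw [one_smul]; exact one_mulVec _⟩
      mul_mem' := fun ⟨c, e⟩ ⟨d, f⟩ => ⟨d * c, by rw [Units.val_mul, ← mulVec_mulVec, f, mulVec_smul, e, smul_smul]⟩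
      inv_mem' := fun {g} ⟨c, e⟩ => ⟨c⁻¹, by
        have e' := congrArg ((g⁻¹).1 *ᵥ ·) e
        simp only [mulVec_mulVec, Units.inv_mul, one_mulVec, mulVec_smul] at e'
        have : c ≠ 0 := by rintro rfl; simpa using congrFun e' o
        rw [eq_inv_smul_iff₀ this, ← e']⟩ }
  have hP : ∀ {g : GL ι F}, g ∈ P ↔ ∀ k, k ≠ o → g.1 k o = 0 := ⟨fun ⟨c, e⟩ k f => by simpa [f] using congrFun e k,
    fun H => ⟨_, funext fun k => by by_cases f : k = o <;> simp [f, H]; rfl⟩⟩
  let ρ : ↥(M ⊓ P) →* Matrix {i // i ≠ o} {i // i ≠ o} F :=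
    { toFun g := g.1.1.submatrix (↑) (↑)
      map_one' := submatrix_one _ Subtype.val_injective
      map_mul' := fun g g' => by
        ext p q
        simp only [Subgroup.coe_mul, Units.val_mul, submatrix_apply, mul_apply]
        rw [Fintype.sum_eq_add_sum_subtype_ne _ o, hP.1 g.2.2 p p.2, zero_mul, zero_add] }
  have hn' : 3 ≤ Fintype.card {i // i ≠ o} := by simp; omega
  have hL : HG ρ.toHomUnits.range := fun π c c0 => by
    obtain ⟨k, b, e⟩ := h (Perm.ofSubtype π) (fun i => if f : i = o then (Perm.sign π : ℤ) * (∏ i, c i)⁻¹ else c ⟨i, f⟩) (by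
      rw [Fintype.prod_eq_mul_prod_subtype_ne _ o, Perm.sign_ofSubtype,
        Finset.prod_congr rfl fun (i : {i // i ≠ o}) _ => dif_neg i.2]
      rcases Int.units_eq_one_or (Perm.sign π) with f | f <;> simp [f, Finset.prod_ne_zero_iff, c0])
    exact ⟨_, ⟨⟨k, b, hP.2 fun i f => by simp [e, mo, f, Perm.ofSubtype_apply_of_not_mem]⟩, rfl⟩, by
      ext p q; simp [ρ, e, mo, Perm.ofSubtype_apply_of_mem π q.2, q.2, Subtype.ext_iff]⟩
  have o0 : ∀ g : GL ι F, g ∈ P → g.1 o o ≠ 0 := fun g hg e => g.det_ne_zero (det_eq_zero_of_column_eq_zero o fun i => by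
    by_cases f : i = o; exacts [f ▸ e, hP.1 hg i f])
  have h2 : ¬ RT ρ.toHomUnits.range := fun ⟨i, j, b, c, c0, _, ⟨⟨g, hg, hg'⟩, rfl⟩, e⟩ => by
    replace e : ∀ p q : {i // i ≠ o}, g.1 p q = (1 + single i j c) p q := fun p q => congr($e p q)
    obtain ⟨l, hl⟩ := exists_nmem {i, j} Finset.card_le_two (by omega)
    simp only [Finset.mem_insert, Finset.mem_singleton, not_or] at hl
    have jl : j.1 ≠ l := fun e => hl.2 (Subtype.ext e.symm)
    set t := d2 j.1 l.1 a with et
    have t0 : ∀ p, t p ≠ 0 := fun p => by simp only [t, d2]; split_ifs <;> simp [a0]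
    have t1 : t o = 1 := by simp [t, d2, j.2.symm, l.2.symm]
    have t2 : t i = 1 := by simp [t, d2, Subtype.val_inj, b, Ne.symm hl.1]
    let Y : Matrix ι ι F := of fun p q => (t p / t q - 1) * g.1 p q
    have y1 : ∀ p q, p ≠ o → p ≠ i → Y p q = 0 := fun p q f f' => by
      by_cases r : q = o
      · simp [Y, r, hP.1 hg' p f]
      by_cases s : p = q
      · simp [Y, s, t0]
      · simp [Y, e ⟨p, f⟩ ⟨q, r⟩, one_apply, s, single_apply, Subtype.ext_iff, Ne.symm f']
    have y2 : ∀ p, Y p o = 0 := fun p => by by_cases f : p = o <;> simp [Y, f, t0, hP.1 hg']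
    have y3 : ∀ p, Y p i = 0 := fun p => by
      by_cases f : p = o
      · simp [Y, f, t1, t2]
      by_cases s : p = i <;> simp [Y, e ⟨p, f⟩ i, one_apply, s, single_apply, Subtype.ext_iff, t0, b.symm]
    have y4 : ∀ v : ι → F, (∀ p, p ≠ o → p ≠ i → v p = 0) → Y *ᵥ v = 0 := fun v hv => funext fun p =>
      Finset.sum_eq_zero fun q _ => by by_cases q = o <;> by_cases q = i <;> simp [*]
    refine hr (h.ab (by omega) a0 a2 (fun p => p = o ∨ p = i) (x := Y * (g⁻¹).1) (fun e' => ?_) (fun p q e' => ⟨by_contra fun f =>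
      e' (by simp [mul_apply, y1 p _ (not_or.1 f).1 (not_or.1 f).2]), fun f => e' ?_⟩)
      (In.of_mul ⟨g, hg, rfl⟩ ((h 1 t (prod_d2 jl a0)).of_mul ?_)))
    · have := congr(($e' * g.1) i j)
      rw [mul_assoc, Units.inv_mul, mul_one] at this
      simp [Y, e i j, t2, b, c0, sub_eq_zero, et, d2, Subtype.val_inj, Ne.symm hl.1] at this
      simp [this] at a2
    · have := o0 g hg'
      obtain ⟨v, c, d⟩ : ∃ v : ι → F, (∀ p, p ≠ o → p ≠ i → v p = 0) ∧ g.1 *ᵥ v = Pi.single q 1 := by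
        rcases f with rfl | rfl
        · exact ⟨Pi.single q (g.1 q q)⁻¹, fun p f _ => by simp [f], funext fun p => by
            by_cases f : p = q <;> simp [f, this, hP.1 hg']⟩
        · exact ⟨Pi.single i.1 1 - Pi.single o (g.1 o i / g.1 o o), fun p f f' => by simp [f, f'], funext fun p => by
            by_cases f : p = o
            · simp [f, mulVec_sub, i.2.symm]; field_simp; ring
            · simp [mulVec_sub, hP.1 hg' p f, e ⟨p, f⟩ i, b.symm, one_apply, Pi.single_apply, Subtype.ext_iff]⟩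
      have := congrFun (y4 v c) p
      rw [show v = (g⁻¹).1 *ᵥ Pi.single q 1 by rw [← d, mulVec_mulVec, Units.inv_mul, one_mulVec], mulVec_mulVec] at this
      simpa using this
    convert (h 1 t (prod_d2 jl a0)).mul ⟨g, hg, rfl⟩ using 1
    ext p q
    rw [add_mul, mul_assoc Y, Units.inv_mul, mul_mo, ← Perm.one_apply p, mo_mul]
    simp only [mul_one, one_mul, Matrix.add_apply, Perm.one_apply, of_apply, Y]
    linear_combination g.1 p _ * div_mul_cancel₀ (t p) (t0 q)
  have h3 := mon3 hL hn' a0 a2 h2 a3 ⟨⟨g, hg, hP.2 h1⟩, rfl⟩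
  have h4 := o0 g (hP.2 h1)
  let χ : ι → F := fun q => if q = o then 0 else -g.1 o q / g.1 o o
  have h5 : Mon (g * H09.glTv (Pi.single o 1) χ (by simp [χ])).1 := fun q => by
    by_cases f : q = o
    · exact ⟨o, fun p e => by simp [f, mul_add, mul_vecMulVec, vecMulVec_apply, h1 p e]⟩
    obtain ⟨p, e⟩ := h3 ⟨q, f⟩
    refine ⟨p, fun s r => ?_⟩
    by_cases r' : s = o
    · simp [f, mul_add, mul_vecMulVec, vecMulVec_apply, r', χ]; field_simp; ring
    · simpa [mul_add, mul_vecMulVec, vecMulVec_apply, h1 s r', ρ] using e ⟨s, r'⟩ (mt (congrArg Subtype.val) r)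
  by_cases h6 : vecMulVec (Pi.single o 1) χ = 0
  · simpa [h6] using h5
  exact (hr (h.ab (by omega) a0 a2 (· = o) h6 (fun p q e => ⟨by_contra fun f => by simp [vecMulVec_apply, f] at e,
    fun f => by simp [vecMulVec_apply, f, χ] at e⟩) ⟨_, (M.mul_mem_cancel_left hg).1
      (h.le_of_mon (Subgroup.mul_mem _ (hM hg) (H09.glTv_det _ _ _)) h5), rfl⟩)).elim

end

section
variable (h : HS M) (hn : 4 ≤ Fintype.card ι) (a0 : a ≠ 0) (a2 : a * a ≠ 1) (a3 : a * a * a ≠ 1) (hr : ¬ RT M)
  (hM : M ≤ specialLinear ι F) {g : GL ι F} (hg : g ∈ M) {f : ι → F}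
include h hn a0 a2 a3 hr hM hg

theorem star4 {j : ι} (h1 : Pt1 (g.1 *ᵥ Pi.single j 1)) : Mon g.1 := by
  obtain ⟨i, e⟩ := h1
  obtain ⟨k, b, c⟩ := h (swap i j) (Function.update 1 i (Perm.sign (swap i j) : ℤ)) (by
    rw [Finset.prod_update_of_mem (Finset.mem_univ i)]
    rcases Int.units_eq_one_or (Perm.sign (swap i j)) with f | f <;> simp [f])
  have d : ∀ p q, (k * g).1 (swap i j p) q = 0 ↔ g.1 p q = 0 := fun p q => by
    rw [Units.val_mul, c, mo_mul]
    rcases Int.units_eq_one_or (Perm.sign (swap i j)) with f | f <;> by_cases f' : p = i <;> simp [f, f']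
  refine fun q => (fix4 h hn a0 a2 a3 hr hM (M.mul_mem b hg) (o := j) (fun p f => ?_) q).elim fun l H =>
    ⟨swap i j l, fun p f => by simpa using (d p q).1 (by simpa using H (swap i j p) (by rwa [Ne, swap_apply_eq_iff]))⟩
  rw [← swap_apply_self i j p, d]
  simpa using e (swap i j p) (by rwa [Ne, swap_apply_eq_iff, swap_apply_left])


theorem st4 (hw : Cl g w) (hk : In M k) {s : F} (e : k *ᵥ w = s • w) (hf : Cl g f) : Cl g (k *ᵥ f) := by
  obtain ⟨k, hk, rfl⟩ := hk
  obtain ⟨j, c⟩ := Function.ne_iff.1 (mv_ne g⁻¹ hw.1)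
  obtain ⟨d, b⟩ := (cl_col g j).prop hw (by rw [inv_mv]; simp) c
  have := (star4 h hn a0 a2 a3 hr hM (M.mul_mem (M.mul_mem (M.inv_mem hg) hk) hg) (j := j) (by
    rw [Units.val_mul, Units.val_mul, ← mulVec_mulVec, ← mulVec_mulVec, b, mulVec_smul, e, mulVec_smul, mulVec_smul]
    exact (hw.2.smul s).smul d)).pt hf.2
  rw [Units.val_mul, Units.val_mul, ← mulVec_mulVec, ← mulVec_mulVec, mv_inv] at this
  exact ⟨mv_ne k hf.1, this⟩

theorem np4 (hg' : ¬ Mon g.1) (hf : Cl g f) : ¬ Pt1 f := fun e => by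
  obtain ⟨j, c⟩ := Function.ne_iff.1 (mv_ne g⁻¹ hf.1)
  obtain ⟨d, b⟩ := (cl_col g j).prop hf (by rw [inv_mv]; simp) c
  exact hg' (star4 h hn a0 a2 a3 hr hM hg (b ▸ e.smul d))

end
end L.Sl4
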