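import Cfsg.Agent.L.Sl41

/-! Overgroups of the monomial group in `SL(4, q)` without root elements are monomial (`L.Sl4.mon4`). -/

namespace L.Sl4
open Matrix Cfsg Cfsg.Geo H10.As Equiv H10.C2 H10.Mx

variable {F : Type*} [Field F]

theorem comb {C : (Fin 4 → F) → Prop} (r : (Fin 4 → F) → Fin 4) (hr : ∀ x y, C x → C y → r x = r y → ∃ c : F, x = c • y) (one : C 1)
    (pm : ∀ π : Perm (Fin 4), Perm.sign π = 1 → ∀ y, C y → C (y ∘ π)) (nz : ∀ y, C y → ∀ p, y p ≠ 0) {y : Fin 4 → F} (hy : C y) :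
    y 0 * y 0 = y 1 * y 1 ∧ y 0 * y 3 = y 1 * y 2 ∧ y 0 * y 2 = y 1 * y 3 := by
  have P : ∀ {u0 u1 u2 u3 : F} {v0 v1 v2 v3 : F}, (∃ c : F, ![u0, u1, u2, u3] = c • ![v0, v1, v2, v3]) →
      ∃ c, u0 = c * v0 ∧ u1 = c * v1 ∧ u2 = c * v2 ∧ u3 = c * v3 := fun ⟨c, e⟩ => ⟨c, congrFun e 0, congrFun e 1, congrFun e 2, congrFun e 3⟩
  have k : ∀ a b c d e : Fin 4, a = b ∨ a = c ∨ a = d ∨ a = e ∨ b = c ∨ b = d ∨ b = e ∨ c = d ∨ c = e ∨ d = e := by decide
  have n0 := nz y hy 0
  have n1 := nz y hy 1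
  have n2 := nz y hy 2
  have n3 := nz y hy 3
  have o : C ![1, 1, 1, 1] := by convert one; ext p; fin_cases p <;> rfl
  have c0 : C ![y 0, y 1, y 2, y 3] := by convert hy; ext p; fin_cases p <;> rfl
  have c1 : C ![y 1, y 0, y 3, y 2] := by convert pm (Equiv.swap 0 1 * Equiv.swap 2 3) (by decide) y hy; ext p; fin_cases p <;> rfl
  have c2 : C ![y 2, y 3, y 0, y 1] := by convert pm (Equiv.swap 0 2 * Equiv.swap 1 3) (by decide) y hy; ext p; fin_cases p <;> rfl
  have c3 : C ![y 3, y 2, y 1, y 0] := by convert pm (Equiv.swap 0 3 * Equiv.swap 1 2) (by decide) y hy; ext p; fin_cases p <;> rfl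
  have c4 : C ![y 0, y 2, y 3, y 1] := by convert pm (Equiv.swap 1 2 * Equiv.swap 2 3) (by decide) y hy; ext p; fin_cases p <;> rfl
  have c5 : C ![y 0, y 3, y 1, y 2] := by convert pm (Equiv.swap 2 3 * Equiv.swap 1 2) (by decide) y hy; ext p; fin_cases p <;> rfl
  generalize y 0 = s at *
  generalize y 1 = t at *
  generalize y 2 = u at *
  generalize y 3 = v at *
  have A : (s * s = t * t ∧ s * v = t * u ∧ s * u = t * v) ∨ (s * s = u * u ∧ s * v = t * u ∧ s * t = u * v) ∨
      (s * s = v * v ∧ s * u = t * v ∧ s * t = u * v) := by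
    rcases k (r ![1, 1, 1, 1]) (r ![s, t, u, v]) (r ![t, s, v, u]) (r ![u, v, s, t]) (r ![v, u, t, s]) with e | e | e | e | e | e | e | e | e | e <;>
      obtain ⟨c, e0, e1, e2, e3⟩ := P (hr _ _ (by assumption) (by assumption) e)
    exacts [.inl (by grind), .inl (by grind), .inl (by grind), .inl (by grind), .inl (by grind), .inr (.inl (by grind)), .inr (.inr (by grind)),
      .inr (.inr (by grind)), .inr (.inl (by grind)), .inl (by grind)]
  rcases A with A | ⟨a1, a2, a3⟩ | ⟨a1, a2, a3⟩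
  · exact A
  all_goals
    rcases k (r ![1, 1, 1, 1]) (r ![s, t, u, v]) (r ![t, s, v, u]) (r ![s, u, v, t]) (r ![s, v, t, u]) with e | e | e | e | e | e | e | e | e | e <;>
      obtain ⟨c, e0, e1, e2, e3⟩ := P (hr _ _ (by assumption) (by assumption) e) <;> grind

variable {M : Subgroup (GL (Fin 4) F)} {a : F} (h : HS M) (a0 : a ≠ 0) (a2 : a * a ≠ 1) (a3 : a * a * a ≠ 1) (a4 : a * a * (a * a) ≠ 1)
  (hr : ¬ RT M) (hM : M ≤ specialLinear (Fin 4) F) {g : GL (Fin 4) F} (hg : g ∈ M) (hg' : ¬ Mon g.1) {w : Fin 4 → F} (hw : Cl g w)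
include h a0 a2 a3 a4 hr hM hg hg' hw

theorem two0 {k l : Fin 4} (b : k ≠ l) (e : w k = 0) : w l ≠ 0 := fun e' => by
  obtain ⟨f, hf, c⟩ := cl_ex g k
  have a1 : a ≠ 1 := by rintro rfl; simp at a2
  have j : ∀ (x : Fin 4 → F) p, (mo 1 (d2 k l a) *ᵥ x) p = d2 k l a p * x p := mo_mulVec 1 _
  have s := fun f => st4 h (by simp) a0 a2 a3 hr hM hg (f := f) hw (h 1 _ (prod_d2 b a0)) (s := 1) (funext fun p => by
    rw [j, d2, one_smul]; split_ifs <;> simp [*])
  have z : ∀ m, m ≠ k → m ≠ l → f m = 0 := fun m d d' => by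
    obtain ⟨t, r⟩ := (s _ (s _ (s _ hf))).dep (c0 := 1) (c1 := -(1 + a + a⁻¹)) (c2 := 1 + a + a⁻¹) hf (s _ hf) (s _ (s _ hf))
      (funext fun p => by simp only [j, d2, Pi.add_apply, Pi.smul_apply, smul_eq_mul]; split_ifs <;> field_simp <;> ring)
    rcases r with r | r | r <;> have r1 := congrFun r k <;> have r2 := congrFun r m <;>
      simp only [j, d2, Pi.smul_apply, smul_eq_mul, d, d', if_true, if_false] at r1 r2 <;> grind
  refine np4 h (by simp) a0 a2 a3 hr hM hg hg' hf ⟨k, fun m d => ?_⟩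
  by_cases d' : m = l
  swap
  · exact z m d d'
  subst d'
  obtain ⟨t, r⟩ := (s _ (s _ hf)).dep (c0 := -1) (c1 := a + a⁻¹) (c2 := 0) hf (s _ hf) hf (funext fun p => by
    simp only [j, d2, Pi.add_apply, Pi.smul_apply, smul_eq_mul]
    split_ifs with u v
    · field_simp; ring
    · field_simp; ring
    · simp [z p u v])
  rcases r with r | r | r <;> have r1 := congrFun r k <;> have r2 := congrFun r m <;>
    simp only [j, d2, Pi.smul_apply, smul_eq_mul, d, if_true, if_false] at r1 r2 <;> field_simp at r2 <;> grind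

omit a4 hg' in
theorem pm4 {π : Perm (Fin 4)} (hπ : Perm.sign π = 1) (hz : ∀ p, w p = 0 → π p = p) {f : Fin 4 → F} (hf : Cl g f) :
    ∃ f', Cl g f' ∧ (∀ p, w p = 0 → f' p = f p) ∧ ∀ p, w p ≠ 0 → f' (π p) * w p = w (π p) * f p := by
  classical
  let u : Fin 4 → F := fun p => if w p = 0 then 1 else w p
  have u0 : ∀ p, u p ≠ 0 := fun p => by simp only [u]; split_ifs <;> simp [*]
  have z : ∀ p, w p ≠ 0 → w (π p) ≠ 0 := fun p a b => a (π.injective (hz _ b) ▸ b)
  refine ⟨_, st4 h (by simp) a0 a2 a3 hr hM hg hw (h π (fun p => u (π p) / u p) (by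
    simp [hπ, Equiv.prod_comp π u, Finset.prod_ne_zero_iff, u0])) (s := 1) (funext fun p => ?_) hf, fun p e => ?_, fun p e => ?_⟩
  · obtain ⟨p, rfl⟩ := π.surjective p
    rw [mo_mulVec]; by_cases e : w p = 0 <;> simp [u, e, hz p, z p]
  · rw [← hz p e, mo_mulVec]; simp [hz p e, u0]
  · rw [mo_mulVec]; simp [u, e, z p e]; field_simp

theorem nz4 (k : Fin 4) : w k ≠ 0 := fun e => by
  classical
  obtain ⟨f, hf, c⟩ := cl_ex g k
  have wn := fun {l} (b : k ≠ l) => two0 h a0 a2 a3 a4 hr hM hg hg' hw b e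
  have np := fun {f} => np4 h (by simp) a0 a2 a3 hr hM hg hg' (f := f)
  obtain ⟨b, hb⟩ : ∃ b, b * (a * a * a) = 1 := ⟨_, inv_mul_cancel₀ (by simp [a0])⟩
  have j : ∀ (x : Fin 4 → F) p, (mo 1 (fun p => if p = k then b else a) *ᵥ x) p = (if p = k then b else a) * x p := mo_mulVec 1 _
  have s := fun f => st4 h (by simp) a0 a2 a3 hr hM hg (f := f) hw (h 1 (fun p => if p = k then b else a) (by
    fin_cases k <;> simp [Fin.prod_univ_four] <;> linear_combination hb)) (s := a) (funext fun p => by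
    rw [j]; split_ifs with u <;> simp [u, e])
  have K : ∀ f', Cl g f' → f' k = f k → f' = f ∨ ∀ p, p ≠ k → a * f' p = b * f p := fun f' hf' u => by
    obtain ⟨t, r⟩ := (s _ hf').dep (c0 := a) (c1 := 1) (c2 := -a) hf' (s _ hf) hf (funext fun p => by
      simp only [j, Pi.add_apply, Pi.smul_apply, smul_eq_mul]
      split_ifs with v
      · rw [v, u]; ring
      · ring)
    rcases r with r | r | r <;> have r1 := congrFun r k <;> simp only [j, Pi.smul_apply, smul_eq_mul, if_true] at r1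
    · refine (np hf' ⟨k, fun p v => ?_⟩).elim
      have r2 := congrFun r p
      simp only [j, Pi.smul_apply, smul_eq_mul, v, if_false] at r2
      grind
    · refine .inl (funext fun p => ?_)
      have r2 := congrFun r p
      simp only [j, Pi.smul_apply, smul_eq_mul] at r2
      split_ifs at r2 <;> grind
    · refine .inr fun p v => ?_
      have r2 := congrFun r p
      simp only [j, Pi.smul_apply, smul_eq_mul, v, if_false] at r2
      grind
  obtain ⟨i, m, l, π, σ, s1, s2, q1, q2, q3, q4, p1, p2, p3, p4, p5, p6, p7, p8⟩ : ∃ i m l : Fin 4, ∃ π σ : Perm (Fin 4),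
      Perm.sign π = 1 ∧ Perm.sign σ = 1 ∧ k ≠ i ∧ k ≠ m ∧ k ≠ l ∧ (∀ p, p ≠ k → p = i ∨ p = m ∨ p = l) ∧ π k = k ∧ π i = m ∧ π m = l ∧ π l = i ∧
      σ k = k ∧ σ m = i ∧ σ l = m ∧ σ i = l :=
    ⟨k + 1, k + 2, k + 3, Equiv.swap (k + 1) (k + 2) * Equiv.swap (k + 2) (k + 3), Equiv.swap (k + 2) (k + 3) * Equiv.swap (k + 1) (k + 2), by clear * -; revert k; decide⟩
  have z : ∀ p, w p = 0 → p = k := fun p u => by_contra fun v => wn (Ne.symm v) u
  obtain ⟨f1, b1, b2, b3⟩ := pm4 h a0 a2 a3 hr hM hg hw s1 (fun p u => by rw [z p u, p1]) hf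
  obtain ⟨f2, c1, c2, c3⟩ := pm4 h a0 a2 a3 hr hM hg hw s2 (fun p u => by rw [z p u, p5]) hf
  have wi := wn q1
  have wm := wn q2
  have wl := wn q3
  have b4 := b3 i wi
  have b5 := b3 m wm
  have b6 := b3 l wl
  have c4 := c3 i wi
  have c5 := c3 m wm
  have c6 := c3 l wl
  rw [p2] at b4
  rw [p3] at b5
  rw [p4] at b6
  rw [p8] at c4
  rw [p6] at c5
  rw [p7] at c6
  have y : f m * w i = w m * f i ∧ f l * w i = w l * f i := by
    rcases K f1 b1 (b2 k e) with rfl | d
    · grind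
    rcases K f2 c1 (c2 k e) with rfl | d'
    · grind
    have := d m q2.symm
    have := d l q3.symm
    have := d' m q2.symm
    have := d' l q3.symm
    grind
  obtain ⟨t, r⟩ := (s _ hf).dep (c0 := b) (c1 := (a - b) * (f i / w i)) (c2 := 0) hf hw hw (funext fun p => by
    simp only [j, Pi.add_apply, Pi.smul_apply, smul_eq_mul]
    split_ifs with v
    · simp [v, e]
    · rcases q4 p v with rfl | rfl | rfl <;> field_simp <;> grind)
  rcases r with r | r | r <;> have r1 := congrFun r k <;> simp only [j, Pi.smul_apply, smul_eq_mul, if_true, e] at r1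
  · refine np hf ⟨k, fun p v => ?_⟩
    have r2 := congrFun r p
    simp only [j, Pi.smul_apply, smul_eq_mul, v, if_false] at r2
    grind
  all_goals grind

omit hg' hw in
theorem mon4 : Mon g.1 := by
  by_contra hg'
  have nz := fun {g} (hg : g ∈ M) hg' {w} hw => nz4 h a0 a2 a3 a4 hr hM hg hg' (w := w) hw
  obtain ⟨w, hw, w0⟩ : ∃ w, Cl g w ∧ ∀ p, g.1 p 0 = w p := ⟨_, cl_col g 0, fun p => by simp⟩
  have wn := nz hg hg' hw
  obtain ⟨r, hr'⟩ := cl_rk g
  have E : ∀ γ, ∃ c : F, c * c = 1 ∧ ∀ p, w ((Equiv.swap 0 1 * Equiv.swap 2 3 : Perm (Fin 4)) p) / w p * g.1 p γ =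
      g.1 ((Equiv.swap 0 1 * Equiv.swap 2 3 : Perm (Fin 4)) p) γ * c := fun γ => by
    have e : (w * fun p => g.1 p γ / w p) = g.1 *ᵥ Pi.single γ 1 := funext fun p => by simp [mul_div_cancel₀, wn p]
    have gn : ∀ p, g.1 p γ ≠ 0 := fun p => by simpa using nz hg hg' (cl_col g γ) p
    obtain ⟨b1, b2, b3⟩ := comb (C := fun y => Cl g (w * y)) (fun y => r (w * y)) (fun x y b c d => (hr' _ _ b c d).imp fun t e => funext fun p =>
      mul_left_cancel₀ (wn p) ((congrFun e p).trans (by simp [mul_left_comm]))) (by simpa using hw) (fun π s y b => by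
        obtain ⟨f, c, -, d⟩ := pm4 h a0 a2 a3 hr hM hg hw (π := π⁻¹) (by simpa using s) (fun p u => (wn p u).elim) b
        convert c
        ext p
        have := d (π p) (wn _)
        simp only [Perm.inv_def, symm_apply_apply, Pi.mul_apply] at this
        exact mul_right_cancel₀ (wn (π p)) (by rw [this]; simp; ring))
      (fun y b p u => nz hg hg' b p (by simp [u])) (y := fun p => g.1 p γ / w p) (e ▸ cl_col g γ)
    have := wn 0
    have := wn 1
    have := wn 2
    have := wn 3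
    have := gn 0
    have := gn 1
    field_simp at b1 b2 b3
    refine ⟨g.1 0 γ * w 1 / (g.1 1 γ * w 0), by field_simp; grind, fun p => ?_⟩
    fin_cases p <;> simp [swap_apply_def] <;> field_simp <;> grind
  choose c c1 c2 using E
  set v := mo (Equiv.swap 0 1 * Equiv.swap 2 3 : Perm (Fin 4)) fun p => w ((Equiv.swap 0 1 * Equiv.swap 2 3 : Perm (Fin 4)) p) / w p with hv
  have vg : v * g.1 = g.1 * mo 1 c := Matrix.ext fun p q => by
    obtain ⟨p, rfl⟩ := (Equiv.swap 0 1 * Equiv.swap 2 3 : Perm (Fin 4)).surjective p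
    rw [mo_mul, mul_mo]; exact c2 q p
  have dv : ∏ i, c i = 1 := by
    have := congrArg det vg
    rw [det_mul, det_mul, det_mo, det_mo, mul_comm g.1.det] at this
    have e := (mul_right_cancel₀ g.det_ne_zero this).symm
    rw [Finset.prod_div_distrib, Equiv.prod_comp _ w, div_self (Finset.prod_ne_zero_iff.2 fun p _ => wn p)] at e
    simpa using e
  have c0 : c 0 = 1 := by
    have := c2 0 0
    simp only [w0] at this
    rw [div_mul_cancel₀ _ (wn _)] at this
    exact (mul_right_eq_self₀.1 this.symm).resolve_right (wn _)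
  have n1 : c ≠ 1 := fun e => by
    have : v = 1 := g.isUnit.mul_right_cancel (by rw [vg, e, one_mul]; ext p q; simp [mul_mo])
    simpa [hv, mo, swap_apply_def] using congr($this 0 0)
  have two : (2 : F) ≠ 0 := fun e => n1 (funext fun p => by have := c1 p; simp only [Pi.one_apply]; grind)
  rw [Fin.prod_univ_four, c0] at dv
  obtain ⟨k, hk, e⟩ := In.of_mul (x := ((a + a⁻¹) / 2) • (1 : Matrix _ _ F) + ((a - a⁻¹) / 2) • v) ⟨g, hg, rfl⟩ (by
    convert In.mul ⟨g, hg, rfl⟩ (h 1 (fun p => (a + a⁻¹) / 2 + (a - a⁻¹) / 2 * c p) ?_) using 1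
    · rw [add_mul, smul_mul_assoc, smul_mul_assoc, vg]
      ext p q
      simp [mul_mo]; ring
    rw [Fin.prod_univ_four, c0]
    rcases mul_self_eq_one_iff.1 (c1 1) with d1 | d1 <;> rcases mul_self_eq_one_iff.1 (c1 2) with d2 | d2 <;>
      rcases mul_self_eq_one_iff.1 (c1 3) with d3 | d3 <;> rw [d1, d2, d3] at dv ⊢
    · exact (n1 (funext fun p => by fin_cases p <;> simp [*])).elim
    all_goals first | exact (two (by linear_combination -dv)).elim | (simp; field_simp; ring))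
  refine nz hk (fun m => ?_) (cl_col k 0) 2 (by simp [e, hv, mo, swap_apply_def])
  obtain ⟨i, m⟩ := m 0
  by_cases u : i = 0
  · have := m 1 (by simp [u])
    simp [e, hv, mo, swap_apply_def, wn, two, sub_eq_zero] at this
    exact a2 (by nth_rw 1 [this]; exact inv_mul_cancel₀ a0)
  · have := m 0 (Ne.symm u)
    simp [e, hv, mo, swap_apply_def, two] at this
    field_simp at this
    grind

end L.Sl4
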