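import Cfsg.Agent.L.Sl42

/-! The monomial group is maximal in `SL(4, q)` for `q ≥ 7` (`L.Sl4.sl4_2`). -/

namespace L.Sl4
open Matrix Cfsg Cfsg.Geo H10.As Equiv H10.C2 H10.Mx

theorem frame4 {F : Type*} [Field F] {ι : Type} [Fintype ι] [DecidableEq ι] {D : Fin 4 → Submodule F (ι → F)} (hD : IsMDecomposition 1 D) {a : F} (a0 : a ≠ 0)
    (a2 : a * a ≠ 1) (a3 : a * a * a ≠ 1) (a4 : a * a * (a * a) ≠ 1) {M : Subgroup (GL ι F)}
    (hM : decompositionStabilizer D ⊓ specialLinear ι F ≤ M) (hM' : M ≤ specialLinear ι F) :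
    specialLinear ι F ≤ M ∨ M ≤ decompositionStabilizer D := by
  obtain ⟨e, P, h⟩ := exists_bd' hD
  let ε : Fin 1 × Fin 4 ≃ Fin 4 := .uniqueProd _ _
  obtain ⟨φ, v, dt⟩ : ∃ φ : GL ι F ≃* GL (Fin 4) F, (∀ g p q, (φ g).1 p q = pm e P g.1 (0, p) (0, q)) ∧
      ∀ g, g ∈ specialLinear ι F → φ g ∈ specialLinear (Fin 4) F :=
    ⟨pl (e.trans ε) P, fun _ _ _ => rfl, fun g hg => by
      rw [H09.mem_specialLinear] at hg ⊢
      generalize e.trans ε = e'
      simp [pl_val, pm, cj_apply, hg, GeneralLinearGroup.det_ne_zero P]⟩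
  have H : HS (M.map φ.toMonoidHom) := fun π c b => by
    obtain ⟨g, d, f⟩ := bm_mem h hD.two_le π (fun i => of fun _ _ => c i) (by simpa using b)
    exact ⟨φ g, ⟨g, hM d, rfl⟩, Matrix.ext fun a b => by rw [v, f]; rfl⟩
  by_cases hr : RT (M.map φ.toMonoidHom)
  · refine .inl fun g hg => ?_
    obtain ⟨g', b, c⟩ := H.le (by simp) hr (dt g hg)
    exact φ.injective c ▸ b
  refine .inr fun g hg => h.le hD.two_le fun i => ?_
  obtain ⟨j, b⟩ := mon4 H a0 a2 a3 a4 hr (by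
    rintro _ ⟨g, hg, rfl⟩; exact dt g (hM' hg)) ⟨g, hg, rfl⟩ i
  refine ⟨j, fun ⟨a1, a2⟩ ⟨c, d⟩ f k => ?_⟩
  obtain rfl : c = 0 := Subsingleton.elim _ _
  obtain rfl : a1 = 0 := Subsingleton.elim _ _
  subst f
  have := b a2 k
  rw [mulVec_single_one, col_apply] at this
  exact (v g a2 d).symm.trans this

theorem sl4_2 {F : Type*} [Field F] [Fintype F] : 7 ≤ Fintype.card F → ∀ D : Fin 4 → Submodule F (Fin 4 → F), Cfsg.Geo.IsMDecomposition 1 D →
    Cfsg.Geo.IsMaximalIn (Cfsg.Geo.specialLinear (Fin 4) F) (Cfsg.Geo.decompositionStabilizer D ⊓ Cfsg.Geo.specialLinear (Fin 4) F) := by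
  intro hq D hD
  obtain ⟨a, ha⟩ := IsCyclic.exists_ofOrder_eq_natCard (α := Fˣ)
  have A : ∀ k, 0 < k → k < 5 → (a : F) ^ k ≠ 1 := fun k a0 b c => by
    classical
    rw [Nat.card_eq_fintype_card, Fintype.card_units] at ha
    exact pow_ne_one_of_lt_orderOf a0.ne' (by omega) (Units.ext (by simpa using c) : a ^ k = 1)
  exact ⟨lt_of_le_of_ne inf_le_right fun h => not_sl_dstab hD (h.ge.trans inf_le_left), fun M hM hM' =>
    Or.imp (fun h => le_antisymm (le_inf h hM') hM) (le_antisymm hM') (Or.symm (frame4 hD a.ne_zero (by simpa [sq] using A 2 (by simp) (by simp))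
      (by simpa [pow_succ] using A 3 (by simp) (by simp)) (by simpa [pow_succ, mul_assoc] using A 4 (by simp) (by simp)) hM hM'))⟩

end L.Sl4
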